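import Cfsg.Agent.ConwayFive.Geom
import Cfsg.Agent.ExtraspecialTwo.Aut
import Cfsg.Agent.LargeExtraspecial.Simple
import Cfsg.Agent.LargeExtraspecial.Pair

/-!
An involution whose centralizer is an extension of an extraspecial group of order `2^9` by the
commutator subgroup of the hyperbolic orthogonal group in dimension eight: coordinates on the
extraspecial group modulo its centre and the action of the centralizer.
-/

set_option autoImplicit false
set_option linter.unusedSectionVars false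
set_option synthInstance.maxSize 2000

namespace CfsgLib.ConwayFive

open Cfsg CfsgLib.ExtraspecialTwo CfsgLib.F2Forms
open scoped Matrix

variable {G : Type*} [Group G] [Finite G]

/-- The polar form. -/
def Bf (u v : V8) : ZMod 2 := Q8 (u + v) + Q8 u + Q8 v

theorem Bf_comm (u v : V8) : Bf u v = Bf v u := by simp only [Bf, add_comm u v]; ring

theorem exists_nonperp : ∀ v : V8, v ≠ 0 → ∃ y : V8, Bf v y = 1 := by
  intro v hv
  obtain ⟨-, ⟨y, hy⟩⟩ := hnd.3 v hv
  refine ⟨y, ((show ∀ a : ZMod 2, a = 0 ∨ a = 1 by decide) _).resolve_left fun e => hy ?_⟩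
  rw [QuadraticMap.polar, CharTwo.sub_eq_add, CharTwo.sub_eq_add]
  exact e

/-- The coordinates of `Q` modulo `⟨z⟩` and the action of the centralizer of `z`. -/
structure Coords (z : G) (Q : Subgroup G) (pr : G → V8) (act : G → O8) : Prop where
  setting : LargeExtraspecial.Setting Q z
  card_Q : Nat.card Q = 512
  pr_mul : ∀ a ∈ Q, ∀ b ∈ Q, pr (a * b) = pr a + pr b
  pr_zero : ∀ a ∈ Q, (pr a = 0 ↔ a = 1 ∨ a = z)
  pr_surj : ∀ v, ∃ a ∈ Q, pr a = v
  pr_sq : ∀ a ∈ Q, (Q8 (pr a) = 0 ↔ a * a = 1)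
  act_mul : ∀ a b, a * z = z * a → b * z = z * b → act (a * b) = act a * act b
  act_pr : ∀ c, c * z = z * c → ∀ a ∈ Q, pr (c * a * c⁻¹) = app (act c) (pr a)
  act_ker : ∀ c, c * z = z * c → (act c = 1 ↔ c ∈ Q)
  act_range : ∀ f, f ∈ Omega (ZMod 2) Q8 ↔ ∃ c, c * z = z * c ∧ act c = f

theorem mem_cent_iff {z x : G} : x ∈ Subgroup.centralizer ({z} : Set G) ↔ x * z = z * x :=
  Subgroup.mem_centralizer_singleton_iff

theorem pow_nine_cancel {n : ℕ} (h : 2 ^ (2 * n + 1) = 2 ^ 9) : n = 4 := by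
  have := Nat.pow_right_injective (le_refl 2) h
  omega

/-- Conjugation acts by isometries with kernel `Q`. -/
theorem exists_action {m : ℕ} {z : G} {Q : Subgroup G} (hS : LargeExtraspecial.Setting Q z)
    {π : ↥Q →* Multiplicative (Sp m)} {w : Sp m} (hπ : IsCoord π (form m w))
    {κ : Type} [Fintype κ] [DecidableEq κ] (Q' : (κ → ZMod 2) → ZMod 2)
    (g : Sp m ≃ₗ[ZMod 2] (κ → ZMod 2)) (hg : ∀ v, form m w v = Q' (g v)) :
    ∃ φ : ↥(Subgroup.centralizer ({z} : Set G)) →* ↥(isometryGroup (ZMod 2) Q'),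
      φ.ker = Q.subgroupOf (Subgroup.centralizer ({z} : Set G)) ∧
      ∀ (c : ↥(Subgroup.centralizer ({z} : Set G))) (a : ↥Q) (b : ↥Q),
        (b : G) = c * a * (c : G)⁻¹ →
          ((φ c : Matrix.GeneralLinearGroup κ (ZMod 2)) : Matrix κ κ (ZMod 2)) *ᵥ g (π a).toAdd =
            g (π b).toAdd := by
  classical
  set C := Subgroup.centralizer ({z} : Set G) with hC
  have hle : Q ≤ C := fun x hx => mem_cent_iff.2 (hS.comm hx)
  haveI hn : (Q.subgroupOf C).Normal := ⟨fun x hx c => by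
    rw [Subgroup.mem_subgroupOf] at hx ⊢
    exact (hS.normalized _ (mem_cent_iff.1 c.2) _).1 hx⟩
  let ι : ↥(Q.subgroupOf C) ≃* ↥Q := Subgroup.subgroupOfEquivOfLe hle
  let cj : ↥C →* MulAut ↥Q := (MulAut.congr ι).toMonoidHom.comp MulAut.conjNormal
  have hcj : ∀ (c : ↥C) (a : ↥Q), (cj c a : G) = c * a * (c : G)⁻¹ := fun c a => rfl
  let tr : ↥(isometryGroup (ZMod 2) (form m w)) →* ↥(isometryGroup (ZMod 2) Q') :=
    MonoidHom.mk' (fun A => ⟨glOfEquiv (g.symm.trans ((equivOfGl A.1).trans g)),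
      ExtraspecialTwo.mem_isometryGroup.2 fun v => by
        rw [glOfEquiv_mulVec]
        simp only [LinearEquiv.trans_apply, equivOfGl_apply, ← hg,
          ExtraspecialTwo.mem_isometryGroup.1 A.2]
        rw [hg, g.apply_symm_apply]⟩)
      fun A B => Subtype.ext (ExtraspecialTwo.gl_ext fun v => by
        simp [glOfEquiv_mulVec, equivOfGl_apply, ← Matrix.mulVec_mulVec])
  have htr : ∀ (A : ↥(isometryGroup (ZMod 2) (form m w))) (v : Sp m),
      ((tr A : Matrix.GeneralLinearGroup κ (ZMod 2)) : Matrix κ κ (ZMod 2)) *ᵥ g v =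
        g (((A : Matrix.GeneralLinearGroup (Fin m ⊕ Fin m) (ZMod 2)) :
          Matrix (Fin m ⊕ Fin m) (Fin m ⊕ Fin m) (ZMod 2)) *ᵥ v) := fun A v => by
    rw [show tr A = (⟨glOfEquiv (g.symm.trans ((equivOfGl A.1).trans g)), _⟩ :
      ↥(isometryGroup (ZMod 2) Q')) from rfl, glOfEquiv_mulVec]
    simp [equivOfGl_apply]
  have hinj : Function.Injective tr := fun A B h => Subtype.ext (ExtraspecialTwo.gl_ext fun v =>
    g.injective (by rw [← htr, ← htr, h]))
  refine ⟨(tr.comp hπ.autHom).comp cj, ?_, ?_⟩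
  · ext c
    rw [MonoidHom.mem_ker, MonoidHom.comp_apply, MonoidHom.comp_apply, map_eq_one_iff _ hinj,
      ← MonoidHom.mem_ker, hπ.autHom_ker hS.extraspecial, Subgroup.mem_subgroupOf]
    constructor
    · rintro ⟨a, ha⟩
      have key : ∀ x ∈ Q, (a : G)⁻¹ * c * x = x * ((a : G)⁻¹ * c) := by
        intro x hx
        have := congrArg Subtype.val (DFunLike.congr_fun ha ⟨x, hx⟩)
        rw [hcj] at this
        simp only [MulAut.conj_apply, Subgroup.coe_mul, InvMemClass.coe_inv] at this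
        calc (a : G)⁻¹ * c * x = (a : G)⁻¹ * (c * x * (c : G)⁻¹) * c := by group
          _ = x * ((a : G)⁻¹ * c) := by rw [← this]; group
      have hmem : (a : G)⁻¹ * c ∈ Subgroup.centralizer (Q : Set G) :=
        Subgroup.mem_centralizer_iff.2 fun x hx => (key x hx).symm
      rw [hS.centralizer_eq] at hmem
      have := Q.mul_mem a.2 (LargeExtraspecial.zOf_le Q hmem)
      rwa [mul_inv_cancel_left] at this
    · intro hc
      exact ⟨⟨c, hc⟩, MulEquiv.ext fun x => Subtype.ext (hcj c x).symm⟩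
  · intro c a b hb
    obtain rfl : b = cj c a := Subtype.ext (hb.trans (hcj c a).symm)
    rw [MonoidHom.comp_apply, MonoidHom.comp_apply, htr, hπ.autHom_apply, hπ.induced_apply]

theorem zmod_two_cases : ∀ a : ZMod 2, a = 0 ∨ a = 1 := by decide

/-- Coordinates for the hypotheses as stated. -/
theorem exists_coords {z : G} (hz : orderOf z = 2)
    (Q : Subgroup (Subgroup.centralizer ({z} : Set G))) [Q.Normal]
    (hF : Cfsg.generalizedFittingSubgroup (Subgroup.centralizer ({z} : Set G)) = Q)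
    (hQ : Cfsg.IsExtraspecial 2 Q) (hcard : Nat.card Q = 2 ^ 9)
    (e : (Subgroup.centralizer ({z} : Set G)) ⧸ Q ≃* Omega (ZMod 2) (quadFormPlus 4 (ZMod 2))) :
    ∃ pr act, Coords z (Q.map (Subgroup.centralizer ({z} : Set G)).subtype) pr act := by
  classical
  have hS : LargeExtraspecial.Setting (Q.map (Subgroup.centralizer ({z} : Set G)).subtype) z := by
    refine LargeExtraspecial.setting_of_generalizedFitting hz (Subgroup.map_subtype_le _)
      (by rw [hF]) ?_
    exact LargeExtraspecial.isExtraspecial_of_mulEquiv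
      (Q.equivMapOfInjective _ (Subgroup.subtype_injective _)) hQ
  set P := Q.map (Subgroup.centralizer ({z} : Set G)).subtype with hP
  have hcP : Nat.card P = 512 := by
    rw [hP, Subgroup.card_map_of_injective (Subgroup.centralizer ({z} : Set G)).subtype_injective, hcard]; rfl
  obtain ⟨n, w, π, hπ, -, hn⟩ := exists_coord hS.extraspecial
  rw [hcP] at hn
  obtain rfl : n = 4 := pow_nine_cancel hn.symm
  have hPQ : P.subgroupOf (Subgroup.centralizer ({z} : Set G)) = Q :=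
    Subgroup.comap_map_eq_self_of_injective (Subgroup.centralizer ({z} : Set G)).subtype_injective Q
  have hcO : Nat.card ↥(Omega (ZMod 2) (quadFormPlus 4 (ZMod 2))) = 174182400 := by
    have h := (Omega (ZMod 2) (quadFormPlus 4 (ZMod 2))).card_mul_index
    rw [Classical.Orth.index_omega_even (Classical.Orth.isNondegQF_quadFormPlus 4) two_zero
      (by simp) hexc, Classical.Orth.card_isometryGroup_plus 3] at h
    norm_num [Classical.Orth.evenProd, Finset.prod_range_succ, ZMod.card, -Nat.card_eq_fintype_card] at h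
    omega
  have hrange : ∀ {κ : Type} [Fintype κ] [DecidableEq κ] (Q' : (κ → ZMod 2) → ZMod 2)
      (φ : ↥(Subgroup.centralizer ({z} : Set G)) →* ↥(isometryGroup (ZMod 2) Q')), φ.ker = P.subgroupOf (Subgroup.centralizer ({z} : Set G)) →
      Nat.card φ.range = 174182400 := by
    intro κ _ _ Q' φ hφ
    rw [← Nat.card_congr (QuotientGroup.quotientKerEquivRange φ).toEquiv,
      Nat.card_congr (QuotientGroup.quotientMulEquivOfEq (hφ.trans hPQ)).toEquiv,
      Nat.card_congr e.toEquiv, hcO]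
  have hw : quadFormPlus 4 (ZMod 2) w = 0 := by
    rcases zmod_two_cases (quadFormPlus 4 (ZMod 2) w) with hw | hw
    · exact hw
    · exfalso
      obtain ⟨g, hg⟩ := (form_minus_iff 3 w).2 hw
      obtain ⟨φ, hφ, -⟩ := exists_action hS hπ (quadFormMinus 3 (ZMod 2) 1 1) g hg
      have h1 := φ.range.card_subgroup_dvd_card
      rw [hrange _ φ hφ, Classical.Orth.card_isometryGroup_minus 1 1 (by decide)] at h1
      norm_num [Classical.Orth.evenProd, Finset.prod_range_succ, ZMod.card] at h1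
  obtain ⟨g0, hg0⟩ := (form_plus_iff 4 w).2 hw
  obtain ⟨g, hg⟩ : ∃ g : Sp 4 ≃ₗ[ZMod 2] V8, ∀ v, form 4 w v = Q8 (g v) :=
    ⟨g0.trans toPlus.symm, fun v => by
      rw [hg0, toPlus_q, LinearEquiv.trans_apply, LinearEquiv.apply_symm_apply]⟩
  obtain ⟨φ, hφ, hcomp⟩ := exists_action hS hπ Q8 g hg
  have hR : φ.range = Omega (ZMod 2) Q8 := eq_omega (hrange _ φ hφ)
  let pr : G → V8 := fun a => if h : a ∈ P then g (π ⟨a, h⟩).toAdd else 0
  let act : G → O8 := fun c => if h : c ∈ (Subgroup.centralizer ({z} : Set G)) then φ ⟨c, h⟩ else 1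
  have hpr : ∀ a (h : a ∈ P), pr a = g (π ⟨a, h⟩).toAdd := fun a h => dif_pos h
  have hact : ∀ c (h : c ∈ (Subgroup.centralizer ({z} : Set G))), act c = φ ⟨c, h⟩ := fun c h => dif_pos h
  refine ⟨pr, act, hS, hcP, ?_, ?_, ?_, ?_, ?_, ?_, ?_, ?_⟩
  · intro a ha b hb
    rw [hpr a ha, hpr b hb, hpr (a * b) (P.mul_mem ha hb), ← map_add, ← toAdd_mul, ← map_mul]
    rfl
  · intro a ha
    rw [hpr a ha, g.map_eq_zero_iff]
    rw [show (π ⟨a, ha⟩).toAdd = 0 ↔ π ⟨a, ha⟩ = 1 from Iff.rfl, hπ.ker]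
    refine Iff.trans ?_ (hS.mem_iff a)
    constructor
    · exact fun h => ⟨⟨a, ha⟩, h, rfl⟩
    · rintro ⟨b, hb, e⟩
      obtain rfl : b = ⟨a, ha⟩ := Subtype.ext e
      exact hb
  · intro v
    obtain ⟨a, ha⟩ := hπ.surj (Multiplicative.ofAdd (g.symm v))
    refine ⟨a, a.2, ?_⟩
    rw [hpr a a.2, Subtype.coe_eta, ha, toAdd_ofAdd, g.apply_symm_apply]
  · intro a ha
    rw [hpr a ha, ← hg]
    exact (hπ.sq ⟨a, ha⟩).symm.trans ⟨fun h => congrArg Subtype.val h, fun h => Subtype.ext h⟩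
  · intro a b ha hb
    rw [hact a (mem_cent_iff.2 ha), hact b (mem_cent_iff.2 hb),
      hact (a * b) (mul_mem (mem_cent_iff.2 ha) (mem_cent_iff.2 hb)), ← map_mul]
    rfl
  · intro c hc a ha
    have hb : c * a * c⁻¹ ∈ P := (hS.normalized c hc a).1 ha
    rw [hact c (mem_cent_iff.2 hc), hpr a ha, hpr _ hb]
    exact (hcomp ⟨c, mem_cent_iff.2 hc⟩ ⟨a, ha⟩ ⟨_, hb⟩ rfl).symm
  · intro c hc
    rw [hact c (mem_cent_iff.2 hc), ← MonoidHom.mem_ker, hφ, Subgroup.mem_subgroupOf]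
  · intro f
    rw [← hR]
    constructor
    · rintro ⟨c, rfl⟩
      exact ⟨c, mem_cent_iff.1 c.2, hact c c.2⟩
    · rintro ⟨c, hc, rfl⟩
      exact ⟨⟨c, mem_cent_iff.2 hc⟩, (hact c _).symm⟩

namespace Coords

variable {z : G} {Q : Subgroup G} {pr : G → V8} {act : G → O8} (h : Coords z Q pr act)
include h

theorem z_sq : z * z = 1 := h.setting.z_mul_z

theorem z_ne : z ≠ 1 := h.setting.z_ne_one

theorem z_mem : z ∈ Q := h.setting.z_mem

theorem comm_Q {a : G} (ha : a ∈ Q) : a * z = z * a := h.setting.comm ha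

theorem comm_inv {a : G} (ha : a * z = z * a) : a⁻¹ * z = z * a⁻¹ :=
  (Commute.inv_left (show Commute a z from ha)).eq

theorem comm_mul {a b : G} (ha : a * z = z * a) (hb : b * z = z * b) : a * b * z = z * (a * b) :=
  (Commute.mul_left (show Commute a z from ha) (show Commute b z from hb)).eq

theorem comm_pow {a : G} (ha : a * z = z * a) (n : ℕ) : a ^ n * z = z * a ^ n :=
  (Commute.pow_left (show Commute a z from ha) n).eq

theorem comm_conj {c a : G} (hc : c * z = z * c) (ha : a * z = z * a) :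
    c * a * c⁻¹ * z = z * (c * a * c⁻¹) := h.comm_mul (h.comm_mul hc ha) (h.comm_inv hc)

theorem conj_mem {c a : G} (hc : c * z = z * c) (ha : a ∈ Q) : c * a * c⁻¹ ∈ Q :=
  (h.setting.normalized c hc a).1 ha

theorem act_Q {a : G} (ha : a ∈ Q) : act a = 1 := (h.act_ker a (h.comm_Q ha)).2 ha

theorem act_one : act 1 = 1 := h.act_Q Q.one_mem

theorem act_inv {a : G} (ha : a * z = z * a) : act a⁻¹ = (act a)⁻¹ := by
  refine eq_inv_of_mul_eq_one_left ?_
  rw [← h.act_mul _ _ (h.comm_inv ha) ha, inv_mul_cancel, h.act_one]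

theorem act_pow {a : G} (ha : a * z = z * a) (n : ℕ) : act (a ^ n) = act a ^ n := by
  induction n with
  | zero => simp [h.act_one]
  | succ n ih => rw [pow_succ, h.act_mul _ _ (h.comm_pow ha n) ha, ih, pow_succ]

theorem act_conj {a b : G} (ha : a * z = z * a) (hb : b * z = z * b) :
    act (a * b * a⁻¹) = act a * act b * (act a)⁻¹ := by
  rw [h.act_mul _ _ (h.comm_mul ha hb) (h.comm_inv ha), h.act_mul _ _ ha hb, h.act_inv ha]

theorem act_mem {c : G} (hc : c * z = z * c) : act c ∈ Omega (ZMod 2) Q8 :=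
  (h.act_range _).2 ⟨c, hc, rfl⟩

theorem pr_one : pr 1 = 0 := (h.pr_zero 1 Q.one_mem).2 (Or.inl rfl)

theorem pr_z : pr z = 0 := (h.pr_zero z h.z_mem).2 (Or.inr rfl)

theorem pr_inv {a : G} (ha : a ∈ Q) : pr a⁻¹ = pr a := by
  have e := h.pr_mul _ (Q.inv_mem ha) _ ha
  rw [inv_mul_cancel, h.pr_one] at e
  calc pr a⁻¹ = pr a⁻¹ + (pr a + pr a) := by rw [add_self8, add_zero]
    _ = pr a := by rw [← add_assoc, ← e, zero_add]

theorem pr_congr {a b : G} (ha : a ∈ Q) (hb : b ∈ Q) (e : pr a = pr b) : a = b ∨ a = b * z := by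
  rcases (h.pr_zero _ (Q.mul_mem (Q.inv_mem hb) ha)).1
    (by rw [h.pr_mul _ (Q.inv_mem hb) _ ha, h.pr_inv hb, e, add_self8]) with e' | e'
  · exact Or.inl (inv_mul_eq_one.1 e').symm
  · exact Or.inr (inv_mul_eq_iff_eq_mul.1 e')

theorem sq_cases {a : G} (ha : a ∈ Q) :
    (a * a = 1 ∧ Q8 (pr a) = 0) ∨ (a * a = z ∧ Q8 (pr a) = 1) := by
  rcases zmod_two_cases (Q8 (pr a)) with e | e
  · exact Or.inl ⟨(h.pr_sq a ha).1 e, e⟩
  · refine Or.inr ⟨((h.pr_zero _ (Q.mul_mem ha ha)).1 (by rw [h.pr_mul _ ha _ ha, add_self8])).resolve_left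
      fun e' => ?_, e⟩
    rw [(h.pr_sq a ha).2 e'] at e
    exact zero_ne_one e

theorem skew {a b : G} (ha : a ∈ Q) (hb : b ∈ Q) :
    (Bf (pr a) (pr b) = 0 ∧ a * b = b * a) ∨ (Bf (pr a) (pr b) = 1 ∧ a * b = b * a * z) := by
  have hpr : pr ((b * a)⁻¹ * (a * b)) = 0 := by
    rw [h.pr_mul _ (Q.inv_mem (Q.mul_mem hb ha)) _ (Q.mul_mem ha hb), h.pr_inv (Q.mul_mem hb ha),
      h.pr_mul _ hb _ ha, h.pr_mul _ ha _ hb, add_comm (pr b), add_self8]
  have hab := Q.mul_mem ha hb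
  have hB : Bf (pr a) (pr b) = Q8 (pr (a * b)) + Q8 (pr a) + Q8 (pr b) := by
    rw [h.pr_mul _ ha _ hb]; rfl
  rcases (h.pr_zero _ (Q.mul_mem (Q.inv_mem (Q.mul_mem hb ha)) (Q.mul_mem ha hb))).1 hpr with e | e
  · left
    have hc : a * b = b * a := (inv_mul_eq_one.1 e).symm
    refine ⟨?_, hc⟩
    have hsq : a * b * (a * b) = (a * a) * (b * b) := (show Commute b a from hc.symm).mul_mul_mul_comm a b
    rcases h.sq_cases ha with ⟨e1, f1⟩ | ⟨e1, f1⟩ <;> rcases h.sq_cases hb with ⟨e2, f2⟩ | ⟨e2, f2⟩ <;>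
      rcases h.sq_cases hab with ⟨e3, f3⟩ | ⟨e3, f3⟩ <;>
      rw [e1, e2, e3] at hsq <;> simp only [one_mul, mul_one, h.z_sq] at hsq <;>
      first
        | exact absurd hsq h.z_ne
        | exact absurd hsq.symm h.z_ne
        | (rw [hB, f1, f2, f3]; decide)
  · right
    have hc : a * b = b * a * z := inv_mul_eq_iff_eq_mul.1 e
    refine ⟨?_, hc⟩
    have hsq : a * b * (a * b) = z * ((a * a) * (b * b)) := by
      have hba : b * a = a * b * z := by rw [hc, mul_assoc, h.z_sq, mul_one]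
      calc a * b * (a * b) = a * (b * a) * b := by group
        _ = a * (a * b * z) * b := by rw [hba]
        _ = (a * a) * b * (z * b) := by group
        _ = (a * a) * b * (b * z) := by rw [h.comm_Q hb]
        _ = (a * a) * (b * b) * z := by group
        _ = z * ((a * a) * (b * b)) := h.comm_Q (Q.mul_mem (Q.mul_mem ha ha) (Q.mul_mem hb hb))
    rcases h.sq_cases ha with ⟨e1, f1⟩ | ⟨e1, f1⟩ <;> rcases h.sq_cases hb with ⟨e2, f2⟩ | ⟨e2, f2⟩ <;>
      rcases h.sq_cases hab with ⟨e3, f3⟩ | ⟨e3, f3⟩ <;>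
      rw [e1, e2, e3] at hsq <;> simp only [one_mul, mul_one, h.z_sq] at hsq <;>
      first
        | exact absurd hsq h.z_ne
        | exact absurd hsq.symm h.z_ne
        | (rw [hB, f1, f2, f3]; decide)

theorem conj_eq_mul_z {a b : G} (ha : a ∈ Q) (hb : b ∈ Q) (hB : Bf (pr a) (pr b) = 1) :
    a * b * a⁻¹ = b * z := by
  rcases h.skew ha hb with ⟨e, -⟩ | ⟨-, e⟩
  · rw [hB] at e; exact absurd e one_ne_zero
  · rw [e, mul_assoc (b * a), ← h.comm_inv (h.comm_Q ha), ← mul_assoc, mul_inv_cancel_right]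

theorem conj_move {a : G} (ha : a ∈ Q) (h0 : pr a ≠ 0) : ∃ y ∈ Q, y * a * y⁻¹ = a * z := by
  obtain ⟨v, hv⟩ := exists_nonperp _ h0
  obtain ⟨y, hy, rfl⟩ := h.pr_surj v
  exact ⟨y, hy, h.conj_eq_mul_z hy ha (by rw [Bf_comm]; exact hv)⟩

theorem exists_act {f : O8} (hf : f ∈ Omega (ZMod 2) Q8) : ∃ c, c * z = z * c ∧ act c = f :=
  (h.act_range f).1 hf

theorem transitive {a b : G} (ha : a ∈ Q) (ha2 : a * a = 1) (ha1 : a ≠ 1) (haz : a ≠ z)
    (hb : b ∈ Q) (hb2 : b * b = 1) (hb1 : b ≠ 1) (hbz : b ≠ z) :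
    ∃ c, c * z = z * c ∧ c * a * c⁻¹ = b := by
  have hne : ∀ {x}, x ∈ Q → x ≠ 1 → x ≠ z → pr x ≠ 0 := fun hx h1 h2 e =>
    ((h.pr_zero _ hx).1 e).elim h1 h2
  obtain ⟨f, hf, hfa⟩ := exists_omega_map ((h.pr_sq a ha).2 ha2) (hne ha ha1 haz)
    ((h.pr_sq b hb).2 hb2) (hne hb hb1 hbz)
  obtain ⟨c, hc, hcf⟩ := h.exists_act hf
  have hpr : pr (c * a * c⁻¹) = pr b := by rw [h.act_pr c hc a ha, hcf, hfa]
  rcases h.pr_congr (h.conj_mem hc ha) hb hpr with e | e
  · exact ⟨c, hc, e⟩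
  · obtain ⟨y, hy, hy'⟩ := h.conj_move hb (hne hb hb1 hbz)
    refine ⟨y * c, h.comm_mul (h.comm_Q hy) hc, ?_⟩
    calc y * c * a * (y * c)⁻¹ = y * (c * a * c⁻¹) * y⁻¹ := by group
      _ = y * b * y⁻¹ * (y * z * y⁻¹) := by rw [e]; group
      _ = b := by rw [hy', h.comm_Q hy, mul_inv_cancel_right, mul_assoc, h.z_sq, mul_one]

/-- An element of odd order fixing a vector fixes the elements over it. -/
theorem conj_fix {c a : G} (hc : c * z = z * c) (ho : Odd (orderOf c)) (ha : a ∈ Q)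
    (e : app (act c) (pr a) = pr a) : c * a * c⁻¹ = a := by
  rcases h.pr_congr (h.conj_mem hc ha) ha (by rw [h.act_pr c hc a ha, e]) with e' | e'
  · exact e'
  · exfalso
    have key : ∀ m : ℕ, c ^ m * a * (c ^ m)⁻¹ = a * z ^ m := by
      intro m
      induction m with
      | zero => simp
      | succ m ih =>
        rw [pow_succ' c m, mul_inv_rev, show c * c ^ m * a * ((c ^ m)⁻¹ * c⁻¹) =
          c * (c ^ m * a * (c ^ m)⁻¹) * c⁻¹ by group, ih,
          show c * (a * z ^ m) * c⁻¹ = c * a * c⁻¹ * (c * z ^ m * c⁻¹) by group, e',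
          ((show Commute c z from hc).pow_right m).eq, mul_inv_cancel_right, mul_assoc, ← pow_succ']
    have := key (orderOf c)
    rw [pow_orderOf_eq_one] at this
    simp only [one_mul, inv_one, mul_one] at this
    obtain ⟨k, hk⟩ := ho
    rw [hk, pow_succ, pow_mul, sq, h.z_sq, one_pow, one_mul] at this
    exact h.z_ne (mul_eq_left.1 this.symm)

end Coords

end CfsgLib.ConwayFive
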