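import Cfsg.Agent.ConwayFive.Coords

/-!
An element `b` of order five of the centralizer with an extraspecial centralizer of minus type in `Q`:
standard position.
-/

set_option autoImplicit false
set_option linter.unusedSectionVars false
set_option synthInstance.maxSize 2000

namespace CfsgLib.ConwayFive

open Cfsg CfsgLib.ExtraspecialTwo CfsgLib.ExtraspecialTwo.MinusFour
open scoped Matrix

variable {G : Type*} [Group G] [Finite G]

/-- `b` acts as the cycle on the second block. -/
structure Frame (z b : G) (Q : Subgroup G) (pr : G → V8) (act : G → O8) : Prop where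
  coords : Coords z Q pr act
  b_z : b * z = z * b
  b_ord : orderOf b = 5
  act_b : act b = iota (1, rot)

theorem Q8_zero : Q8 0 = 0 := by decide

theorem Bf_add_left (x y v : V8) : Bf (x + y) v = Bf x v + Bf y v := by
  have e : ∀ u w : V8, Bf u w = QuadraticMap.polar Q8 u w := fun u w => by
    rw [Bf, QuadraticMap.polar, CharTwo.sub_eq_add, CharTwo.sub_eq_add]
  simp only [e]
  exact hnd.2.1 _ _ _

theorem Bf_add_right (v x y : V8) : Bf v (x + y) = Bf v x + Bf v y := by
  rw [Bf_comm, Bf_add_left, Bf_comm x, Bf_comm y]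

theorem Q8_add (u v : V8) : Q8 (u + v) = Q8 u + Q8 v + Bf u v := by
  simp only [Bf]
  calc Q8 (u + v) = Q8 (u + v) + ((Q8 u + Q8 u) + (Q8 v + Q8 v)) := by
        rw [CharTwo.add_self_eq_zero, CharTwo.add_self_eq_zero, add_zero, add_zero]
    _ = _ := by ring

theorem Bf_self (v : V8) : Bf v v = 0 := by
  rw [Bf, add_self8, Q8_zero, zero_add, CharTwo.add_self_eq_zero]

theorem app_Bf (g : O8) (u v : V8) : Bf (app g u) (app g v) = Bf u v := by
  simp only [Bf, ← app_add, app_q]

/-- The combination of four vectors. -/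
def comb (a : Fin 4 → V8) (v : V4) : V8 := v 0 • a 0 + v 1 • a 1 + v 2 • a 2 + v 3 • a 3

theorem comb_add (a : Fin 4 → V8) (u v : V4) : comb a (u + v) = comb a u + comb a v := by
  simp only [comb, Pi.add_apply, add_smul]; abel

theorem comb_smul (a : Fin 4 → V8) (c : ZMod 2) (v : V4) : comb a (c • v) = c • comb a v := by
  simp only [comb, Pi.smul_apply, smul_eq_mul, mul_smul, smul_add]

theorem comb_zero (a : Fin 4 → V8) : comb a 0 = 0 := by simp [comb]

theorem comb_pt (a : Fin 4 → V8) (i : Fin 4) : comb a (pt i.castSucc) = a i := by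
  have h : ∀ i j : Fin 4, pt i.castSucc j = if i = j then 1 else 0 := by decide
  simp only [comb, h]
  fin_cases i <;> simp

theorem comb_pt_last (a : Fin 4 → V8) : comb a (pt 4) = a 0 + a 1 + a 2 + a 3 := by
  have h : ∀ j : Fin 4, pt 4 j = 1 := by decide
  simp only [comb, h, one_smul]

theorem q_comb {a : Fin 4 → V8} (ha : ∀ i, Q8 (a i) = 0) (hab : ∀ i j, i ≠ j → Bf (a i) (a j) = 1)
    (v : V4) : Q8 (comb a v) = qV v := by
  obtain ⟨x0, x1, x2, x3, rfl⟩ : ∃ x0 x1 x2 x3 : ZMod 2, v = ![x0, x1, x2, x3] :=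
    ⟨v 0, v 1, v 2, v 3, funext fun i => by fin_cases i <;> rfl⟩
  simp only [comb, Matrix.cons_val]
  have h0 : ∀ w : V8, Bf 0 w = 0 := fun w => by
    have := Bf_add_left 0 0 w
    rw [add_zero] at this
    exact this.trans (CharTwo.add_self_eq_zero _)
  have h0' : ∀ w : V8, Bf w 0 = 0 := fun w => by rw [Bf_comm, h0]
  rcases zmod_two_cases x0 with rfl | rfl <;> rcases zmod_two_cases x1 with rfl | rfl <;>
    rcases zmod_two_cases x2 with rfl | rfl <;> rcases zmod_two_cases x3 with rfl | rfl <;>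
    simp [Q8_add, Bf_add_left, ha, hab, h0, h0', Q8_zero] <;> decide

theorem comb_injective {a : Fin 4 → V8} (ha : ∀ i, Q8 (a i) = 0) (hne : ∀ i, a i ≠ 0)
    (hab : ∀ i j, i ≠ j → Bf (a i) (a j) = 1) : Function.Injective (comb a) := by
  intro u v e
  have h : comb a (u + v) = 0 := by rw [comb_add, e, add_self8]
  have hq := q_comb ha hab (u + v)
  rw [h, Q8_zero] at hq
  rcases singular_cases _ hq.symm with e' | ⟨k, hk⟩
  · calc u = u + (v + v) := by rw [add_self4, add_zero]
      _ = v := by rw [← add_assoc, e', zero_add]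
  · exfalso
    rw [hk] at h
    rcases Fin.eq_castSucc_or_eq_last k with ⟨i, rfl⟩ | rfl
    · exact hne i (by rwa [comb_pt] at h)
    · rw [show (Fin.last 4 : Fin 5) = 4 from rfl, comb_pt_last] at h
      have h1 := congrArg (fun x => Bf x (a 0)) h
      simp only [Bf_add_left, Bf_self, hab 1 0 (by decide), hab 2 0 (by decide),
        hab 3 0 (by decide)] at h1
      have h0 : Bf 0 (a 0) = 0 := by
        have := Bf_add_left 0 0 (a 0)
        rw [add_zero] at this
        exact this.trans (CharTwo.add_self_eq_zero _)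
      rw [h0] at h1
      revert h1; decide

theorem count_singular : (Finset.univ.filter fun v : V8 => Q8 v = 0).card = 136 := by decide +kernel

theorem solve_count {m n : ℕ} (hm : m ≤ 16) (hm1 : 1 ≤ m) (hm5 : 5 ∣ m - 1) (hn : n ≤ 16)
    (h : n * m + (16 - n) * (16 - m) = 136) : m = 6 ∧ n = 6 := by
  obtain ⟨k, hk⟩ := hm5
  have : k = 0 ∨ k = 1 ∨ k = 2 ∨ k = 3 := by omega
  obtain rfl : m = 5 * k + 1 := by omega
  rcases this with rfl | rfl | rfl | rfl <;> norm_num at h ⊢ <;> omega

theorem exists_pt_zero : ∀ v : V4, v ≠ 0 → ∃ c : Fin 5 → ZMod 2, c 0 • v + c 1 • MinusFour.act rot v +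
    c 2 • MinusFour.act (rot ^ 2) v + c 3 • MinusFour.act (rot ^ 3) v +
    c 4 • MinusFour.act (rot ^ 4) v = pt 0 := by decide +kernel

theorem pt_add_ne : ∀ i j m : Fin 5, i ≠ j → pt i + pt j ≠ pt m := by decide

theorem rot_castSucc : ∀ i : Fin 4, rot i.castSucc = i.succ := by decide

/-- A change of coordinates. -/
theorem Coords.transform {z : G} {Q : Subgroup G} {pr : G → V8} {act : G → O8}
    (h : Coords z Q pr act) (S : O8) :
    Coords z Q (fun a => app S (pr a)) (fun c => S * act c * S⁻¹) := by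
  refine ⟨h.setting, h.card_Q, fun a ha b hb => ?_, fun a ha => ?_, fun v => ?_, fun a ha => ?_,
    fun a b ha hb => ?_, fun c hc a ha => ?_, fun c hc => ?_, fun f => ?_⟩
  · simp only [h.pr_mul a ha b hb, app_add]
  · rw [← h.pr_zero a ha]
    exact ⟨fun e => app_injective S (e.trans (app_zero S).symm), fun e => by rw [e, app_zero]⟩
  · obtain ⟨a, ha, e⟩ := h.pr_surj (app S⁻¹ v)
    exact ⟨a, ha, by simp only [e, ← app_mul, mul_inv_cancel, app_one]⟩
  · rw [app_q]; exact h.pr_sq a ha
  · simp only [h.act_mul a b ha hb]; group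
  · simp only [h.act_pr c hc a ha, ← app_mul, inv_mul_cancel_right]
  · rw [← h.act_ker c hc]
    exact conj_eq_one_iff
  · have hn : (Omega (ZMod 2) Q8).Normal := by unfold Cfsg.Omega; infer_instance
    constructor
    · intro hf
      obtain ⟨c, hc, e⟩ := h.exists_act (hn.conj_mem f hf S⁻¹)
      exact ⟨c, hc, by simp only [e]; group⟩
    · rintro ⟨c, hc, rfl⟩
      exact hn.conj_mem _ (h.act_mem hc) S

/-- The fixed vectors. -/
def fixW (β : O8) : Finset V8 := Finset.univ.filter fun v => app β v = v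

/-- The commutator vectors. -/
def movU (β : O8) : Finset V8 := Finset.univ.image fun v => app β v + v

theorem memW {β : O8} {v : V8} : v ∈ fixW β ↔ app β v = v := by simp [fixW]

theorem memU {β : O8} {v : V8} : v ∈ movU β ↔ ∃ y, app β y + y = v := by simp [movU]

attribute [local irreducible] fixW movU

theorem fixW_add {β : O8} {u v : V8} (hu : u ∈ fixW β) (hv : v ∈ fixW β) : u + v ∈ fixW β := by
  rw [memW] at hu hv ⊢; rw [app_add, hu, hv]

theorem movU_add {β : O8} {u v : V8} (hu : u ∈ movU β) (hv : v ∈ movU β) : u + v ∈ movU β := by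
  rw [memU] at hu hv ⊢
  obtain ⟨x, rfl⟩ := hu
  obtain ⟨y, rfl⟩ := hv
  exact ⟨x + y, by rw [app_add]; abel⟩

theorem movU_app {β : O8} {u : V8} (hu : u ∈ movU β) : app β u ∈ movU β := by
  rw [memU] at hu ⊢
  obtain ⟨x, rfl⟩ := hu
  exact ⟨app β x, (app_add _ _ _).symm⟩

theorem fixW_zero (β : O8) : (0 : V8) ∈ fixW β := memW.2 (app_zero β)

theorem movU_zero (β : O8) : (0 : V8) ∈ movU β := memU.2 ⟨0, by rw [app_zero, add_zero]⟩

theorem eq_zero_of_both {β : O8} (hβ5 : β ^ 5 = 1) {u : V8} (hu : u ∈ movU β) (hw : u ∈ fixW β) :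
    u = 0 := by
  obtain ⟨x, rfl⟩ := memU.1 hu
  rw [memW, app_add] at hw
  have h2 : app β (app β x) = x := by
    have : app β (app β x) = app β x + x + app β x := by
      rw [← hw]; rw [add_assoc, add_self8, add_zero]
    rw [this, add_comm (app β x + x), ← add_assoc, add_self8, zero_add]
  have h1 : app β x = x := by
    have e : β = β ^ 5 * (β⁻¹ * β⁻¹) * (β⁻¹ * β⁻¹) := by group
    have hi : app (β⁻¹ * β⁻¹) x = x := by
      conv_lhs => rw [← h2]
      rw [← app_mul, ← app_mul, show β⁻¹ * β⁻¹ * β * β = 1 by group, app_one]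
    rw [e, hβ5, one_mul, app_mul, hi, hi]
  rw [h1, add_self8]

theorem orth {β : O8} {w u : V8} (hw : w ∈ fixW β) (hu : u ∈ movU β) : Bf w u = 0 := by
  obtain ⟨x, rfl⟩ := memU.1 hu
  rw [Bf_add_right]
  conv_lhs => arg 1; rw [← memW.1 hw, app_Bf]
  exact CharTwo.add_self_eq_zero _

theorem card_movU {β : O8} (hW : (fixW β).card = 16) : (movU β).card = 16 := by
  let L : V8 →+ V8 := AddMonoidHom.mk' (fun v => app β v + v) fun u v => by rw [app_add]; abel
  have h1 := L.ker.card_mul_index
  rw [AddSubgroup.index_ker] at h1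
  have e1 : Nat.card L.ker = 16 := by
    rw [← SetLike.coe_sort_coe, Nat.card_coe_set_eq, show (L.ker : Set V8) = ((fixW β) : Set V8) from ?_,
      Set.ncard_coe_finset, hW]
    ext v
    rw [SetLike.mem_coe, AddMonoidHom.mem_ker]
    simp only [L, AddMonoidHom.mk'_apply, fixW, Finset.coe_filter, Finset.mem_univ, true_and,
      Set.mem_setOf_eq]
    exact ⟨fun e => by rw [← add_zero (app β v), ← add_self8 v, ← add_assoc, e, zero_add],
      fun e => by rw [e, add_self8]⟩
  have e2 : Nat.card L.range = (movU β).card := by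
    rw [← SetLike.coe_sort_coe, Nat.card_coe_set_eq, AddMonoidHom.coe_range, ← Set.ncard_coe_finset, movU,
      Finset.coe_image, Finset.coe_univ, Set.image_univ]
    rfl
  rw [e1, e2, Nat.card_eq_fintype_card] at h1
  simp only [Fintype.card_pi, ZMod.card, Finset.prod_const, Finset.card_univ, Fintype.card_sum,
    Fintype.card_fin] at h1
  omega

theorem injOn_add {β : O8} (hβ5 : β ^ 5 = 1) :
    Set.InjOn (fun p : V8 × V8 => p.1 + p.2) (fixW β ×ˢ movU β : Finset (V8 × V8)) := by
  rintro ⟨w, u⟩ hp ⟨w', u'⟩ hp' e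
  simp only [Finset.coe_product, Set.mem_prod, Finset.mem_coe] at hp hp'
  have e' : w + w' = u + u' := by
    calc w + w' = (w + u) + (w' + u) := by
          rw [add_add_add_comm, add_self8, add_zero]
      _ = (w' + u') + (w' + u) := by rw [show w + u = w' + u' from e]
      _ = u + u' := by rw [add_add_add_comm, add_self8, zero_add, add_comm]
  have h0 := eq_zero_of_both hβ5 (movU_add hp.2 hp'.2) (e' ▸ fixW_add hp.1 hp'.1)
  rw [h0] at e'
  exact Prod.ext (by rw [← add_zero w, ← add_self8 w', ← add_assoc, e', zero_add])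
    (by rw [← add_zero u, ← add_self8 u', ← add_assoc, h0, zero_add])

theorem singular_card {β : O8} (hβ5 : β ^ 5 = 1) (hW : (fixW β).card = 16) :
    ((fixW β).filter fun v => Q8 v = 0).card = 6 ∧ ((movU β).filter fun v => Q8 v = 0).card = 6 := by
  classical
  have hU := card_movU hW
  set Wset := fixW β with hWdef
  set Uset := movU β with hUdef
  have hinj := injOn_add hβ5
  rw [← hWdef, ← hUdef] at hinj
  have horth : ∀ {w u}, w ∈ Wset → u ∈ Uset → Bf w u = 0 := fun {w u} hw hu => orth hw hu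
  have hUW : ∀ {u}, u ∈ Uset → u ∈ Wset → u = 0 := fun {u} hu hw => eq_zero_of_both hβ5 hu hw
  have hUapp : ∀ {u}, u ∈ Uset → app β u ∈ Uset := fun {u} hu => movU_app hu
  have hsurj : (Wset ×ˢ Uset).image (fun p : V8 × V8 => p.1 + p.2) = Finset.univ := by
    refine Finset.eq_univ_of_card _ ?_
    rw [Finset.card_image_of_injOn hinj, Finset.card_product, hW, hU]
    simp
  let W0 := Wset.filter fun v => Q8 v = 0
  let U0 := Uset.filter fun v => Q8 v = 0
  let W1 := Wset.filter fun v => ¬ Q8 v = 0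
  let U1 := Uset.filter fun v => ¬ Q8 v = 0
  have hcount : W0.card * U0.card + W1.card * U1.card = 136 := by
    rw [← Finset.card_product, ← Finset.card_product, ← Finset.card_union_of_disjoint (by
      rw [Finset.disjoint_left]
      intro p hp hp'
      simp only [W0, W1, Finset.mem_product, Finset.mem_filter] at hp hp'
      exact hp'.1.2 hp.1.2), ← count_singular, ← hsurj, Finset.filter_image,
      Finset.card_image_of_injOn (hinj.mono (by
        intro p hp
        simp only [Finset.coe_filter, Set.mem_setOf_eq] at hp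
        exact hp.1))]
    refine congrArg Finset.card (Finset.ext fun p => ?_)
    simp only [W0, W1, U0, U1, Finset.mem_union, Finset.mem_product, Finset.mem_filter]
    constructor
    · rintro (⟨⟨hw, ew⟩, hu, eu⟩ | ⟨⟨hw, ew⟩, hu, eu⟩) <;> refine ⟨⟨hw, hu⟩, ?_⟩ <;>
        rw [Q8_add, horth hw hu, add_zero]
      · rw [ew, eu, add_zero]
      · rw [(zmod_two_cases _).resolve_left ew, (zmod_two_cases _).resolve_left eu]; decide
    · rintro ⟨⟨hw, hu⟩, e⟩
      rw [Q8_add, horth hw hu, add_zero] at e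
      by_cases ew : Q8 p.1 = 0
      · rw [ew, zero_add] at e; exact Or.inl ⟨⟨hw, ew⟩, hu, e⟩
      · rw [(zmod_two_cases _).resolve_left ew] at e
        refine Or.inr ⟨⟨hw, ew⟩, hu, fun eu => ?_⟩
        rw [eu] at e
        exact absurd e (by decide)
  have h0U : (0 : V8) ∈ U0 := by
    simp only [U0, Finset.mem_filter]
    exact ⟨movU_zero β, Q8_zero⟩
  have hU0app : ∀ {u}, u ∈ U0 → app β u ∈ U0 := fun {u} hu => by
    simp only [U0, Finset.mem_filter] at hu ⊢
    exact ⟨hUapp hu.1, by rw [app_q]; exact hu.2⟩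
  have hU5 : 5 ∣ U0.card - 1 := by
    haveI : Fact (Nat.Prime 5) := ⟨by norm_num⟩
    let T := {u : V8 // u ∈ U0.erase 0}
    let τf : T → T := fun u => ⟨app β u, Finset.mem_erase.2 ⟨fun e => (Finset.mem_erase.1 u.2).1
      (app_injective β (e.trans (app_zero β).symm)), hU0app (Finset.mem_erase.1 u.2).2⟩⟩
    let τ : Equiv.Perm T := Equiv.ofBijective τf (Finite.injective_iff_bijective.1 fun u v e =>
      Subtype.ext (app_injective β (congrArg Subtype.val e)))
    have hτ : ∀ (n : ℕ) (u : T), ((τ ^ n) u : V8) = app (β ^ n) u := by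
      intro n
      induction n with
      | zero => intro u; simp [app_one]
      | succ n ih =>
        intro u
        rw [pow_succ', pow_succ', Equiv.Perm.mul_apply, app_mul, ← ih]
        rfl
    have h5 : τ ^ 5 ^ 1 = 1 := Equiv.ext fun u => Subtype.ext (by
      rw [hτ, pow_one, hβ5, app_one]; rfl)
    have hsupp : τ.support = Finset.univ := Finset.eq_univ_of_forall fun u => by
      rw [Equiv.Perm.mem_support]
      intro e
      refine (Finset.mem_erase.1 u.2).1 (hUW ?_ (memW.2 (congrArg Subtype.val e)))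
      exact (Finset.mem_filter.1 (Finset.mem_erase.1 u.2).2).1
    have := Equiv.Perm.card_compl_support_modEq (p := 5) (n := 1) h5
    rw [hsupp] at this
    simp only [Finset.compl_univ, Finset.card_empty] at this
    have h' := (Nat.modEq_zero_iff_dvd.1 this.symm)
    simp only [T, Fintype.card_coe, Finset.card_erase_of_mem h0U] at h'
    exact h'
  obtain ⟨hU6, hW6⟩ := solve_count (m := U0.card) (n := W0.card)
    ((Finset.card_filter_le _ _).trans hU.le) (Finset.card_pos.2 ⟨0, h0U⟩) hU5
    ((Finset.card_filter_le _ _).trans hW.le) (by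
      have e1 := Finset.card_filter_add_card_filter_not (s := Wset) (fun v => Q8 v = 0)
      have e2 := Finset.card_filter_add_card_filter_not (s := Uset) (fun v => Q8 v = 0)
      rw [hW] at e1; rw [hU] at e2
      have f1 : 16 - W0.card = W1.card := by simp only [W0, W1]; omega
      have f2 : 16 - U0.card = U1.card := by simp only [U0, U1]; omega
      rw [f1, f2]
      exact hcount)
  exact ⟨hW6, hU6⟩

/-- Four vectors for the block of commutator vectors. -/
theorem exists_blockU {β : O8} (hβ5 : β ^ 5 = 1) (hW : (fixW β).card = 16) :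
    ∃ aU : Fin 4 → V8, (∀ i, Q8 (aU i) = 0) ∧ (∀ i j, i ≠ j → Bf (aU i) (aU j) = 1) ∧
      (∀ v, comb aU v ∈ movU β) ∧ Function.Injective (comb aU) ∧
      ∀ v, comb aU (MinusFour.act rot v) = app β (comb aU v) := by
  classical
  obtain ⟨-, hU6⟩ := singular_card hβ5 hW
  set Uset := movU β with hUdef
  let U0 := Uset.filter fun v => Q8 v = 0
  have h0U : (0 : V8) ∈ U0 := Finset.mem_filter.2 ⟨movU_zero β, Q8_zero⟩
  have hU0app : ∀ {u}, u ∈ U0 → app β u ∈ U0 := fun {u} hu => by
    simp only [U0, Finset.mem_filter] at hu ⊢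
    exact ⟨movU_app hu.1, by rw [app_q]; exact hu.2⟩
  have hUadd : ∀ {u v}, u ∈ Uset → v ∈ Uset → u + v ∈ Uset := fun hu hv => movU_add hu hv
  have hUW : ∀ {u}, u ∈ Uset → u ∈ fixW β → u = 0 := fun {u} hu hw => eq_zero_of_both hβ5 hu hw
  obtain ⟨v0, hv0⟩ : (U0.erase 0).Nonempty := Finset.card_pos.1 (by
    rw [Finset.card_erase_of_mem h0U]; simp only [U0, hU6]; norm_num)
  obtain ⟨hv0ne, hv0U0⟩ := Finset.mem_erase.1 hv0
  have hpowU : ∀ n : ℕ, app (β ^ n) v0 ∈ U0 := fun n => by
    induction n with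
    | zero => rwa [pow_zero, app_one]
    | succ n ih => rw [pow_succ', app_mul]; exact hU0app ih
  let a5 : Fin 5 → V8 := fun i => app (β ^ (i : ℕ)) v0
  let aU : Fin 4 → V8 := fun i => a5 i.castSucc
  have hcombU : ∀ v, comb aU v ∈ Uset := by
    intro v
    have hs : ∀ (c : ZMod 2) (n : ℕ), c • app (β ^ n) v0 ∈ Uset := fun c n => by
      rcases zmod_two_cases c with rfl | rfl
      · rw [zero_smul]; exact (Finset.mem_filter.1 h0U).1
      · rw [one_smul]; exact (Finset.mem_filter.1 (hpowU n)).1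
    exact hUadd (hUadd (hUadd (hs _ _) (hs _ _)) (hs _ _)) (hs _ _)
  have ha5m : ∀ k, a5 k ∈ Uset := fun k => (Finset.mem_filter.1 (hpowU (k : ℕ))).1
  have ha5q : ∀ k, Q8 (a5 k) = 0 := fun k => (Finset.mem_filter.1 (hpowU (k : ℕ))).2
  have hsum : a5 0 + a5 1 + a5 2 + a5 3 + a5 4 = 0 := by
    refine hUW ?_ (memW.2 ?_)
    · exact hUadd (hUadd (hUadd (hUadd (ha5m 0) (ha5m 1)) (ha5m 2)) (ha5m 3)) (ha5m 4)
    · simp only [a5, app_add, ← app_mul, ← pow_succ']
      simp only [Fin.val_zero, Fin.val_one, Fin.val_two]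
      rw [show ((3 : Fin 5) : ℕ) = 3 from rfl, show ((4 : Fin 5) : ℕ) = 4 from rfl,
        show (4 + 1 : ℕ) = 5 from rfl, hβ5, pow_zero]
      abel
  have hequiv : ∀ v, comb aU (MinusFour.act rot v) = app β (comb aU v) := by
    intro v
    let Fl : V4 →ₗ[ZMod 2] V8 :=
      { toFun := comb aU, map_add' := comb_add aU, map_smul' := comb_smul aU }
    let Bl : V8 →ₗ[ZMod 2] V8 :=
      Matrix.mulVecLin ((β : GL I8 (ZMod 2)) : Matrix I8 I8 (ZMod 2))
    show Fl (MinusFour.act rot v) = Bl (Fl v)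
    rw [eq_sum_pt v, map_sum, map_sum, map_sum, map_sum]
    refine Finset.sum_congr rfl fun i _ => ?_
    rw [map_smul, map_smul, map_smul, map_smul, act_pt, rot_castSucc]
    refine congrArg (fun w => v i • w) ?_
    show comb aU (pt i.succ) = app β (comb aU (pt i.castSucc))
    rw [comb_pt]
    show _ = app β (app (β ^ (i.castSucc : ℕ)) v0)
    rw [← app_mul, ← pow_succ']
    rcases Fin.eq_castSucc_or_eq_last i.succ with ⟨j, hj⟩ | hj
    · rw [hj, comb_pt]
      show app (β ^ (j.castSucc : ℕ)) v0 = _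
      rw [← hj]; simp
    · rw [hj, show (Fin.last 4 : Fin 5) = 4 from rfl, comb_pt_last]
      have hi : (i.castSucc : ℕ) + 1 = 4 := by
        have := congrArg Fin.val hj; simpa using this
      rw [hi]
      calc aU 0 + aU 1 + aU 2 + aU 3 = a5 0 + a5 1 + a5 2 + a5 3 + (a5 4 + a5 4) := by
            rw [add_self8, add_zero]; rfl
        _ = a5 4 := by rw [← add_assoc, hsum, zero_add]
  have hequivn : ∀ (n : ℕ) v, comb aU (MinusFour.act (rot ^ n) v) = app (β ^ n) (comb aU v) := by
    intro n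
    induction n with
    | zero => intro v; rw [pow_zero, pow_zero, act_one', app_one]
    | succ n ih => intro v; rw [pow_succ', pow_succ', act_mul', hequiv, ih, app_mul]
  have hinjU : Function.Injective (comb aU) := by
    intro u v e
    by_contra hne
    have h0 : comb aU (u + v) = 0 := by rw [comb_add, e, add_self8]
    obtain ⟨c, hc⟩ := exists_pt_zero (u + v) fun e' => hne (by
      calc u = u + (v + v) := by rw [add_self4, add_zero]
        _ = v := by rw [← add_assoc, e', zero_add])
    have h1 := congrArg (comb aU) hc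
    simp only [comb_add, comb_smul, hequiv, hequivn, h0, app_zero, smul_zero, add_zero] at h1
    rw [show (0 : Fin 5) = (0 : Fin 4).castSucc from rfl, comb_pt] at h1
    exact hv0ne (by simpa [aU, a5, app_one] using h1.symm)
  have ha5 : ∀ k, comb aU (pt k) = a5 k := by
    intro k
    rcases Fin.eq_castSucc_or_eq_last k with ⟨i, rfl⟩ | rfl
    · exact comb_pt aU i
    · rw [show (Fin.last 4 : Fin 5) = 4 from rfl, comb_pt_last]
      calc aU 0 + aU 1 + aU 2 + aU 3 = a5 0 + a5 1 + a5 2 + a5 3 + (a5 4 + a5 4) := by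
            rw [add_self8, add_zero]; rfl
        _ = a5 4 := by rw [← add_assoc, hsum, zero_add]
  have hall : Finset.univ.image a5 = U0.erase 0 := by
    refine Finset.eq_of_subset_of_card_le ?_ ?_
    · intro v hv
      obtain ⟨k, -, rfl⟩ := Finset.mem_image.1 hv
      refine Finset.mem_erase.2 ⟨fun e => (pt_props k).2 (hinjU ?_), hpowU _⟩
      rw [ha5, e, comb_zero]
    · rw [Finset.card_erase_of_mem h0U, Finset.card_image_of_injective _ fun i j e =>
        pt_injective (hinjU (by rw [ha5, ha5, e]))]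
      simp only [U0, hU6]
      simp
  have haUB : ∀ i j, i ≠ j → Bf (aU i) (aU j) = 1 := fun i j hij => by
    refine (zmod_two_cases _).resolve_left fun e => ?_
    have hij' : i.castSucc ≠ j.castSucc := fun e' => hij (Fin.castSucc_injective 4 e')
    have hm : aU i + aU j ∈ U0.erase 0 := by
      refine Finset.mem_erase.2 ⟨fun e' => hij' (pt_injective (hinjU ?_)), ?_⟩
      · rw [ha5, ha5]
        calc a5 i.castSucc = a5 i.castSucc + (aU j + aU j) := by rw [add_self8, add_zero]
          _ = a5 j.castSucc := by rw [← add_assoc]; show aU i + aU j + aU j = _; rw [e', zero_add]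
      · simp only [U0, Finset.mem_filter]
        exact ⟨hUadd (ha5m i.castSucc) (ha5m j.castSucc), by
          rw [Q8_add, e, ha5q i.castSucc, ha5q j.castSucc]; decide⟩
    rw [← hall] at hm
    obtain ⟨m, -, hm⟩ := Finset.mem_image.1 hm
    refine pt_add_ne i.castSucc j.castSucc m hij' (hinjU ?_)
    rw [comb_add, comb_pt, comb_pt, ha5, hm]
  exact ⟨aU, fun i => ha5q i.castSucc, haUB, hcombU, hinjU, hequiv⟩

/-- Four vectors for the block of fixed vectors. -/
theorem exists_blockW {β : O8} (hβ5 : β ^ 5 = 1) (hW : (fixW β).card = 16)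
    (hline : ∀ u v, app β u = u → app β v = v → Q8 u = 0 → Q8 v = 0 → Bf u v = 0 →
      u = 0 ∨ v = 0 ∨ u = v) :
    ∃ aW : Fin 4 → V8, (∀ i, Q8 (aW i) = 0) ∧ (∀ i j, i ≠ j → Bf (aW i) (aW j) = 1) ∧
      (∀ v, comb aW v ∈ fixW β) ∧ Function.Injective (comb aW) := by
  classical
  obtain ⟨hW6, -⟩ := singular_card hβ5 hW
  have h0W : (0 : V8) ∈ (fixW β).filter fun v => Q8 v = 0 :=
    Finset.mem_filter.2 ⟨fixW_zero β, Q8_zero⟩
  have hW5 : (((fixW β).filter fun v => Q8 v = 0).erase 0).card = 5 := by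
    rw [Finset.card_erase_of_mem h0W, hW6]
  let eW := (Finset.equivFinOfCardEq hW5).symm
  let aW : Fin 4 → V8 := fun i => (eW i.castSucc : V8)
  have haW : ∀ i, aW i ≠ 0 ∧ Q8 (aW i) = 0 ∧ aW i ∈ fixW β := fun i => by
    have := (eW i.castSucc).2
    simp only [Finset.mem_erase, Finset.mem_filter] at this
    exact ⟨this.1, this.2.2, this.2.1⟩
  have haWB : ∀ i j, i ≠ j → Bf (aW i) (aW j) = 1 := fun i j hij => by
    refine (zmod_two_cases _).resolve_left fun e => ?_
    rcases hline _ _ (memW.1 (haW i).2.2) (memW.1 (haW j).2.2) (haW i).2.1 (haW j).2.1 e with e' | e' | e'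
    · exact (haW i).1 e'
    · exact (haW j).1 e'
    · exact hij (Fin.castSucc_injective 4 (eW.injective (Subtype.ext e')))
  refine ⟨aW, fun i => (haW i).2.1, haWB, fun v => ?_,
    comb_injective (fun i => (haW i).2.1) (fun i => (haW i).1) haWB⟩
  have hs : ∀ (c : ZMod 2) i, c • aW i ∈ fixW β := fun c i => by
    rcases zmod_two_cases c with rfl | rfl
    · rw [zero_smul]; exact fixW_zero β
    · rw [one_smul]; exact (haW i).2.2
  exact fixW_add (fixW_add (fixW_add (hs _ _) (hs _ _)) (hs _ _)) (hs _ _)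

/-- Such an isometry of order five is conjugate to the standard one. -/
theorem exists_conj_std {β : O8} (hβ5 : β ^ 5 = 1) (hW : (fixW β).card = 16)
    (hline : ∀ u v, app β u = u → app β v = v → Q8 u = 0 → Q8 v = 0 → Bf u v = 0 →
      u = 0 ∨ v = 0 ∨ u = v) :
    ∃ S : O8, S⁻¹ * β * S = iota (1, rot) := by
  classical
  obtain ⟨aW, hWq, haWB, hcombW, hinjW⟩ := exists_blockW hβ5 hW hline
  obtain ⟨aU, hUq, haUB, hcombU, hinjU, hequiv⟩ := exists_blockU hβ5 hW
  have hinj := injOn_add hβ5
  let T : V8 →ₗ[ZMod 2] V8 :=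
    { toFun := fun v => comb aW (pw v) + comb aU (pu v)
      map_add' := fun u v => by rw [map_add, map_add, comb_add, comb_add]; abel
      map_smul' := fun c v => by rw [map_smul, map_smul, comb_smul, comb_smul, RingHom.id_apply, smul_add] }
  have hTinj : Function.Injective T := by
    intro u v e
    have := hinj (x₁ := (comb aW (pw u), comb aU (pu u))) (x₂ := (comb aW (pw v), comb aU (pu v)))
      (by simp [hcombW, hcombU]) (by simp [hcombW, hcombU]) e
    simp only [Prod.mk.injEq] at this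
    exact vec_ext (hinjW this.1) (hinjU this.2)
  let Te : V8 ≃ₗ[ZMod 2] V8 := LinearEquiv.ofBijective T
    ⟨hTinj, Finite.surjective_of_injective hTinj⟩
  have hTq : ∀ v, Q8 (Te v) = Q8 v := by
    intro v
    show Q8 (comb aW (pw v) + comb aU (pu v)) = _
    rw [Q8_add, orth (hcombW _) (hcombU _), add_zero, q_comb hWq haWB, q_comb hUq haUB]
    rfl
  let S : O8 := ⟨glOfEquiv Te, ExtraspecialTwo.mem_isometryGroup.2 fun v => by
    rw [glOfEquiv_mulVec]; exact hTq v⟩
  have hS : ∀ v, app S v = comb aW (pw v) + comb aU (pu v) := fun v => by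
    show ((glOfEquiv Te : GL I8 (ZMod 2)) : Matrix I8 I8 (ZMod 2)) *ᵥ v = _
    rw [glOfEquiv_mulVec]; rfl
  refine ⟨S, ?_⟩
  rw [mul_assoc, inv_mul_eq_iff_eq_mul]
  refine iso_ext fun v => ?_
  rw [app_mul, app_mul, hS, hS, app_iota, pw_mk, pu_mk, act_one', hequiv, app_add,
    memW.1 (hcombW _)]

/-- Standard position for an element of order five with an extraspecial centralizer of minus type. -/
theorem exists_frame {z : G} {Q : Subgroup G} {pr : G → V8} {act : G → O8} (h : Coords z Q pr act)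
    {b : G} (hbz : b * z = z * b) (hb5 : orderOf b = 5)
    (hcard : Nat.card ↥(Q ⊓ Subgroup.centralizer ({b} : Set G)) = 32)
    (hminus : ∀ x ∈ Q, ∀ y ∈ Q, x * b = b * x → y * b = b * y → x * x = 1 → y * y = 1 →
      x * y = y * x → pr x = 0 ∨ pr y = 0 ∨ pr x = pr y) :
    ∃ pr' act', Frame z b Q pr' act' := by
  classical
  set β := act b with hβ
  have hb5' : b ^ 5 = 1 := by rw [← hb5, pow_orderOf_eq_one]
  have hodd : Odd (orderOf b) := by rw [hb5]; decide
  have hβ5 : β ^ 5 = 1 := by rw [hβ, ← h.act_pow hbz, hb5', h.act_one]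
  have hfix : ∀ a ∈ Q, (app β (pr a) = pr a ↔ a * b = b * a) := by
    intro a ha
    constructor
    · intro e
      have := h.conj_fix hbz hodd ha e
      exact (mul_inv_eq_iff_eq_mul.1 this).symm
    · intro e
      rw [hβ, ← h.act_pr b hbz a ha, ← e, mul_inv_cancel_right]
  have hW : (fixW β).card = 16 := by
    let φ : ↥(Q ⊓ Subgroup.centralizer ({b} : Set G)) →* Multiplicative V8 :=
      MonoidHom.mk' (fun a => Multiplicative.ofAdd (pr a)) fun x y => by
        rw [Subgroup.coe_mul, h.pr_mul _ x.2.1 _ y.2.1]; rfl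
    have hker : Nat.card φ.ker = 2 := by
      have hz : z ∈ Q ⊓ Subgroup.centralizer ({b} : Set G) := ⟨h.z_mem, mem_cent_iff.2 hbz.symm⟩
      have e : (φ.ker : Set ↥(Q ⊓ Subgroup.centralizer ({b} : Set G))) = {1, ⟨z, hz⟩} := by
        ext a
        rw [SetLike.mem_coe, MonoidHom.mem_ker, Set.mem_insert_iff, Set.mem_singleton_iff]
        show Multiplicative.ofAdd (pr a) = 1 ↔ _
        rw [ofAdd_eq_one, h.pr_zero _ a.2.1]
        exact ⟨fun e => e.imp (fun e => Subtype.ext e) (fun e => Subtype.ext e),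
          fun e => e.imp (fun e => congrArg Subtype.val e) (fun e => congrArg Subtype.val e)⟩
      rw [← SetLike.coe_sort_coe, Nat.card_coe_set_eq, e]
      exact Set.ncard_pair fun e' => h.z_ne (congrArg Subtype.val e').symm
    have h1 := φ.ker.card_mul_index
    rw [Subgroup.index_ker, hker, hcard] at h1
    have e : (φ.range : Set (Multiplicative V8)) = Multiplicative.ofAdd '' (fixW β : Set V8) := by
      ext x
      constructor
      · rintro ⟨a, rfl⟩
        exact ⟨pr a, by simp [fixW, (hfix _ a.2.1).2 (mem_cent_iff.1 a.2.2)], rfl⟩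
      · rintro ⟨v, hv, rfl⟩
        obtain ⟨a, ha, rfl⟩ := h.pr_surj v
        simp only [fixW, Finset.coe_filter, Finset.mem_univ, true_and, Set.mem_setOf_eq] at hv
        exact ⟨⟨a, ha, mem_cent_iff.2 ((hfix a ha).1 hv)⟩, rfl⟩
    rw [← SetLike.coe_sort_coe φ.range, Nat.card_coe_set_eq, e,
      Set.ncard_image_of_injective _ Multiplicative.ofAdd.injective, Set.ncard_coe_finset] at h1
    omega
  obtain ⟨S, hS⟩ := exists_conj_std hβ5 hW fun u v hu hv hqu hqv e => by
    obtain ⟨x, hx, rfl⟩ := h.pr_surj u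
    obtain ⟨y, hy, rfl⟩ := h.pr_surj v
    refine hminus x hx y hy ((hfix x hx).1 hu) ((hfix y hy).1 hv) ((h.pr_sq x hx).1 hqu)
      ((h.pr_sq y hy).1 hqv) ?_
    rcases h.skew hx hy with ⟨-, e'⟩ | ⟨e', -⟩
    · exact e'
    · rw [e] at e'; exact absurd e' zero_ne_one
  refine ⟨_, _, ⟨h.transform S⁻¹, hbz, hb5, ?_⟩⟩
  show S⁻¹ * act b * S⁻¹⁻¹ = _
  rw [inv_inv, ← hβ, hS]

end CfsgLib.ConwayFive
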