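import Cfsg.Agent.ExtraspecialTwo.MinusFour
import Cfsg.Agent.Classical.Orth.SubspaceTrans
import Cfsg.Agent.Classical.Orth.OrderStd

/-!
The hyperbolic space of dimension eight over the field with two elements, split as the sum of two
elliptic planes of dimension four, each with the symmetric group of degree five on its singular points.
-/

set_option autoImplicit false
set_option linter.unusedSectionVars false
set_option synthInstance.maxSize 2000

namespace CfsgLib.ConwayFive

open Cfsg Cfsg.Geo CfsgLib.ExtraspecialTwo CfsgLib.ExtraspecialTwo.MinusFour CfsgLib.F2Forms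
open CfsgLib.OrthGeo (bform reflection reflection_mulVec)
open CfsgLib.Classical.Orth
open scoped Matrix

/-- The index set of the coordinates. -/
abbrev I8 : Type := Fin 4 ⊕ Fin 4

/-- The space. -/
abbrev V8 : Type := I8 → ZMod 2

/-- The first block. -/
def pw : V8 →ₗ[ZMod 2] V4 where
  toFun v i := v (.inl i)
  map_add' _ _ := rfl
  map_smul' _ _ := rfl

/-- The second block. -/
def pu : V8 →ₗ[ZMod 2] V4 where
  toFun v i := v (.inr i)
  map_add' _ _ := rfl
  map_smul' _ _ := rfl

/-- A vector from its blocks. -/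
def mk (a b : V4) : V8 := Sum.elim a b

@[simp] theorem pw_mk (a b : V4) : pw (mk a b) = a := rfl
@[simp] theorem pu_mk (a b : V4) : pu (mk a b) = b := rfl

theorem mk_pw_pu (v : V8) : mk (pw v) (pu v) = v := by funext i; rcases i with i | i <;> rfl

theorem vec_ext {u v : V8} (h1 : pw u = pw v) (h2 : pu u = pu v) : u = v := by
  rw [← mk_pw_pu u, ← mk_pw_pu v, h1, h2]

theorem mk_add (a b c d : V4) : mk (a + c) (b + d) = mk a b + mk c d := vec_ext rfl rfl

/-- The quadratic form. -/
def Q8 (v : V8) : ZMod 2 := qV (pw v) + qV (pu v)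

theorem Q8_mk (a b : V4) : Q8 (mk a b) = qV a + qV b := rfl

/-- Hyperbolic coordinates. -/
def toPlus : V8 ≃ₗ[ZMod 2] Sp 4 where
  toFun v := Sum.elim
    ![v (.inl 0) + v (.inl 2) + v (.inl 3), v (.inr 0) + v (.inr 2) + v (.inr 3),
      v (.inl 3) + v (.inr 3), v (.inl 2) + v (.inr 2)]
    ![v (.inl 1) + v (.inl 2) + v (.inl 3), v (.inr 1) + v (.inr 2) + v (.inr 3),
      v (.inl 2) + (v (.inl 2) + v (.inr 2)) + (v (.inl 3) + v (.inr 3)),
      v (.inl 3) + (v (.inl 2) + v (.inr 2))]
  invFun u := Sum.elim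
    ![u (.inl 0) + (u (.inr 2) + u (.inl 2) + u (.inl 3)) + (u (.inr 3) + u (.inl 3)),
      u (.inr 0) + (u (.inr 2) + u (.inl 2) + u (.inl 3)) + (u (.inr 3) + u (.inl 3)),
      u (.inr 2) + u (.inl 2) + u (.inl 3), u (.inr 3) + u (.inl 3)]
    ![u (.inl 1) + (u (.inr 2) + u (.inl 2)) + (u (.inr 3) + u (.inl 3) + u (.inl 2)),
      u (.inr 1) + (u (.inr 2) + u (.inl 2)) + (u (.inr 3) + u (.inl 3) + u (.inl 2)),
      u (.inr 2) + u (.inl 2), u (.inr 3) + u (.inl 3) + u (.inl 2)]
  map_add' u v := by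
    funext j; rcases j with j | j <;> fin_cases j <;> simp <;> ring
  map_smul' c v := by
    funext j; rcases j with j | j <;> fin_cases j <;> simp <;> ring
  left_inv v := by revert v; decide +kernel
  right_inv u := by revert u; decide +kernel

theorem toPlus_q : ∀ v : V8, Q8 v = quadFormPlus 4 (ZMod 2) (toPlus v) := by decide +kernel

theorem hnd : IsNondegenerateQuadraticForm Q8 := by
  have h := isNondegQF_quadFormPlus (F := ZMod 2) 4
  have hp : ∀ u v : V8, QuadraticMap.polar Q8 u v =
      QuadraticMap.polar (quadFormPlus 4 (ZMod 2)) (toPlus u) (toPlus v) := by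
    intro u v
    simp only [QuadraticMap.polar, toPlus_q, map_add]
  obtain ⟨h1, ⟨b1, b2, b3, b4⟩, h3⟩ := h
  refine ⟨fun c v => ?_, ⟨fun x y v => ?_, fun c x v => ?_, fun v x y => ?_, fun c v x => ?_⟩, fun v hv => ?_⟩
  · rw [toPlus_q, toPlus_q, map_smul, h1]
  · simp only [hp, map_add]; exact b1 _ _ _
  · simp only [hp, map_smul]; exact b2 _ _ _
  · simp only [hp, map_add]; exact b3 _ _ _
  · simp only [hp, map_smul]; exact b4 _ _ _
  · obtain ⟨⟨x, hx⟩, ⟨y, hy⟩⟩ := h3 (toPlus v) (by rwa [Ne, LinearEquiv.map_eq_zero_iff])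
    exact ⟨⟨toPlus.symm x, by rwa [hp, LinearEquiv.apply_symm_apply]⟩,
      ⟨toPlus.symm y, by rwa [hp, LinearEquiv.apply_symm_apply]⟩⟩

theorem hexc : ¬ (Nat.card (ZMod 2) = 2 ∧ Fintype.card I8 = 4) := by simp

theorem two_zero : (2 : ZMod 2) = 0 := rfl

theorem add_self8 (v : V8) : v + v = 0 := funext fun i => CharTwo.add_self_eq_zero (v i)

theorem add_self4 (v : V4) : v + v = 0 := funext fun i => CharTwo.add_self_eq_zero (v i)

/-- The isometry group. -/
abbrev O8 : Type := ↥(isometryGroup (ZMod 2) Q8)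

/-- The action. -/
def app (g : O8) (v : V8) : V8 := ((g : GL I8 (ZMod 2)) : Matrix I8 I8 (ZMod 2)) *ᵥ v

theorem app_one (v : V8) : app 1 v = v := by simp [app]

theorem app_mul (g h : O8) (v : V8) : app (g * h) v = app g (app h v) := by
  simp [app, Matrix.mulVec_mulVec]

theorem app_add (g : O8) (u v : V8) : app g (u + v) = app g u + app g v := Matrix.mulVec_add _ _ _

theorem app_zero (g : O8) : app g 0 = 0 := Matrix.mulVec_zero _

theorem app_inv_app (g : O8) (v : V8) : app g⁻¹ (app g v) = v := by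
  rw [← app_mul, inv_mul_cancel, app_one]

theorem app_injective (g : O8) : Function.Injective (app g) := fun u v h => by
  rw [← app_inv_app g u, h, app_inv_app]

theorem app_q (g : O8) (v : V8) : Q8 (app g v) = Q8 v := mem_isometryGroup.1 g.2 v

theorem iso_ext {g h : O8} (H : ∀ v, app g v = app h v) : g = h := Subtype.ext (gl_ext H)

theorem card_O8 : Nat.card O8 = 348364800 := by
  obtain ⟨e⟩ := nonempty_isometryGroup_equiv toPlus toPlus_q
  show Nat.card ↥(isometryGroup (ZMod 2) Q8) = _
  rw [Nat.card_congr e.toEquiv, card_isometryGroup_plus 3]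
  norm_num [evenProd, Finset.prod_range_succ, ZMod.card]

theorem index_two : (Omega (ZMod 2) Q8).index = 2 :=
  index_omega_even hnd two_zero (by simp) hexc

theorem card_omega : Nat.card ↥(Omega (ZMod 2) Q8) = 174182400 := by
  have h := (Omega (ZMod 2) Q8).card_mul_index
  rw [index_two, card_O8] at h
  omega

/-- A subgroup of the index of `Omega` is `Omega`. -/
theorem eq_omega {H : Subgroup O8} (hc : Nat.card H = 174182400) : H = Omega (ZMod 2) Q8 := by
  have hidx : H.index = 2 := by
    have h := H.card_mul_index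
    rw [hc, card_O8] at h
    omega
  refine (Subgroup.eq_of_le_of_card_ge ?_ (by rw [hc, card_omega])).symm
  rw [Omega, commutator_def, Subgroup.commutator_le]
  intro a _ b _
  rw [commutatorElement_def]
  simp only [Subgroup.mul_mem_iff_of_index_two hidx, Subgroup.inv_mem_iff]
  tauto

/-- The permutation representation on both blocks. -/
def blockEnd (p : Equiv.Perm (Fin 5) × Equiv.Perm (Fin 5)) : Module.End (ZMod 2) V8 where
  toFun v := mk (MinusFour.act p.1 (pw v)) (MinusFour.act p.2 (pu v))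
  map_add' u v := by simp only [map_add, mk_add]
  map_smul' c v := vec_ext (by simp [map_smul]) (by simp [map_smul])

theorem blockEnd_apply (p : Equiv.Perm (Fin 5) × Equiv.Perm (Fin 5)) (v : V8) :
    blockEnd p v = mk (MinusFour.act p.1 (pw v)) (MinusFour.act p.2 (pu v)) := rfl

theorem act_one' (a : V4) : MinusFour.act 1 a = a := LinearMap.congr_fun actHom.map_one a

theorem act_mul' (σ τ : Equiv.Perm (Fin 5)) (a : V4) :
    MinusFour.act (σ * τ) a = MinusFour.act σ (MinusFour.act τ a) :=
  LinearMap.congr_fun (actHom.map_mul σ τ) a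

/-- The representation as a homomorphism. -/
def blockHom : Equiv.Perm (Fin 5) × Equiv.Perm (Fin 5) →* Matrix I8 I8 (ZMod 2) :=
  (LinearMap.toMatrixAlgEquiv' : _ ≃ₐ[ZMod 2] Matrix I8 I8 (ZMod 2)).toRingEquiv.toMonoidHom.comp
    { toFun := blockEnd
      map_one' := LinearMap.ext fun v => vec_ext (act_one' _) (act_one' _)
      map_mul' := fun p q => LinearMap.ext fun v => vec_ext (act_mul' _ _ _) (act_mul' _ _ _) }

theorem blockHom_mulVec (p : Equiv.Perm (Fin 5) × Equiv.Perm (Fin 5)) (v : V8) :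
    blockHom p *ᵥ v = blockEnd p v := by
  show (LinearMap.toMatrixAlgEquiv' (blockEnd p)) *ᵥ v = _
  rw [← Matrix.toLinAlgEquiv'_apply, Matrix.toLinAlgEquiv'_toMatrixAlgEquiv']

/-- The isometries preserving both blocks. -/
def iota : Equiv.Perm (Fin 5) × Equiv.Perm (Fin 5) →* O8 :=
  blockHom.toHomUnits.codRestrict _ fun p => mem_isometryGroup.2 fun v => by
    show Q8 (blockHom p *ᵥ v) = Q8 v
    rw [blockHom_mulVec, blockEnd_apply, Q8_mk, qV_act, qV_act]
    rfl

theorem app_iota (π ρ : Equiv.Perm (Fin 5)) (v : V8) :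
    app (iota (π, ρ)) v = mk (MinusFour.act π (pw v)) (MinusFour.act ρ (pu v)) :=
  blockHom_mulVec (π, ρ) v

theorem iota_pair (π ρ π' ρ' : Equiv.Perm (Fin 5)) :
    iota (π, ρ) * iota (π', ρ') = iota (π * π', ρ * ρ') := by rw [← map_mul]; rfl

theorem perm_ext {π π' : Equiv.Perm (Fin 5)} (h : ∀ a, MinusFour.act π a = MinusFour.act π' a) :
    π = π' :=
  Equiv.ext fun k => pt_injective (by rw [← act_pt, ← act_pt, h])

theorem iota_inj {π ρ π' ρ' : Equiv.Perm (Fin 5)} (h : iota (π, ρ) = iota (π', ρ')) :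
    π = π' ∧ ρ = ρ' := by
  constructor <;> refine perm_ext fun a => ?_
  · simpa [app_iota] using congrArg pw (congrArg (fun f => app f (mk a 0)) h)
  · simpa [app_iota] using congrArg pu (congrArg (fun f => app f (mk 0 a)) h)

/-- An additive bijection of `V4` preserving the form permutes the singular points. -/
theorem exists_perm (f : V4 → V4) (hinj : Function.Injective f) (hadd : ∀ a b, f (a + b) = f a + f b)
    (hq : ∀ a, qV (f a) = qV a) : ∃ π : Equiv.Perm (Fin 5), ∀ a, f a = MinusFour.act π a := by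
  have h0 : f 0 = 0 := by
    have := hadd 0 0
    rw [add_zero] at this
    exact this.trans (add_self4 _)
  have hh : ∀ k, ∃ l, f (pt k) = pt l := fun k => by
    refine (singular_cases _ ?_).resolve_left fun e => (pt_props k).2 (hinj (e.trans h0.symm))
    rw [hq, (pt_props k).1]
  choose τ hτ using hh
  have hτi : Function.Injective τ := fun k l e => pt_injective (hinj (by rw [hτ, hτ, e]))
  let π := Equiv.ofBijective τ (Finite.injective_iff_bijective.1 hτi)
  refine ⟨π, fun a => ?_⟩
  let F : V4 →ₗ[ZMod 2] V4 :=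
    { toFun := f, map_add' := hadd
      map_smul' := fun c v => by
        rcases (show c = 0 ∨ c = 1 by revert c; decide) with rfl | rfl
        · simp [h0]
        · simp }
  show F a = _
  rw [eq_sum_pt a, map_sum, map_sum]
  refine Finset.sum_congr rfl fun i _ => ?_
  rw [map_smul, map_smul, act_pt]
  exact congrArg _ (hτ _)

/-- The cycle. -/
def rot : Equiv.Perm (Fin 5) := finRotate 5

theorem rot_pow_five : rot ^ 5 = 1 := by decide
theorem rot_ne_one : rot ≠ 1 := by decide
theorem sign_rot : Equiv.Perm.sign rot = 1 := by decide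

theorem fixed_rot : ∀ a : V4, MinusFour.act rot a = a → a = 0 := by decide

theorem rot_comm : ∀ π : Equiv.Perm (Fin 5), π * rot = rot * π →
    ∃ i : Fin 5, π = rot ^ (i : ℕ) := by decide +kernel

theorem five_cycle_conj : ∀ τ : Equiv.Perm (Fin 5), τ ^ 5 = 1 → τ ≠ 1 →
    Equiv.Perm.sign τ = 1 ∧ ∃ π, π * τ * π⁻¹ = rot := by decide +kernel

/-- An element commuting with the cycle in the second block is a pair. -/
theorem comm_rot {f : O8} (h : f * iota (1, rot) = iota (1, rot) * f) :
    ∃ π ρ : Equiv.Perm (Fin 5), f = iota (π, ρ) ∧ ρ * rot = rot * ρ := by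
  have hF : ∀ v, app f (mk (pw v) (MinusFour.act rot (pu v))) =
      mk (pw (app f v)) (MinusFour.act rot (pu (app f v))) := by
    intro v
    have := congrArg (fun g => app g v) h
    simpa only [app_mul, app_iota, act_one'] using this
  have hW : ∀ a, pu (app f (mk a 0)) = 0 := fun a => by
    have := congrArg pu (hF (mk a 0))
    rw [pw_mk, pu_mk, map_zero, pu_mk] at this
    exact fixed_rot _ this.symm
  have hsurj : ∀ b : V4, ∃ c, MinusFour.act rot c + c = b := by decide
  have hU : ∀ b, pw (app f (mk 0 b)) = 0 := fun b => by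
    obtain ⟨c, rfl⟩ := hsurj b
    have h1 := congrArg pw (hF (mk 0 c))
    rw [pw_mk, pu_mk, pw_mk] at h1
    rw [show mk (0 : V4) (MinusFour.act rot c + c) = mk 0 (MinusFour.act rot c) + mk 0 c by
      rw [← mk_add, add_zero], app_add, map_add, h1, add_self4]
  have eW : ∀ a, app f (mk a 0) = mk (pw (app f (mk a 0))) 0 := fun a => vec_ext rfl (hW a)
  have eU : ∀ b, app f (mk 0 b) = mk 0 (pu (app f (mk 0 b))) := fun b => vec_ext (hU b) rfl
  obtain ⟨π, hπ⟩ := exists_perm (fun a => pw (app f (mk a 0)))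
    (fun a a' e => by simpa using congrArg pw (app_injective f
      ((eW a).trans ((congrArg (fun x => mk x 0) e).trans (eW a').symm))))
    (fun a a' => by rw [← map_add, ← app_add, ← mk_add, add_zero])
    (fun a => by
      have := app_q f (mk a 0)
      rw [eW a, Q8_mk, Q8_mk] at this
      exact add_right_cancel this)
  obtain ⟨ρ, hρ⟩ := exists_perm (fun b => pu (app f (mk 0 b)))
    (fun a a' e => by simpa using congrArg pu (app_injective f
      ((eU a).trans ((congrArg (fun x => mk 0 x) e).trans (eU a').symm))))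
    (fun a a' => by rw [← map_add, ← app_add, ← mk_add, add_zero])
    (fun a => by
      have := app_q f (mk 0 a)
      rw [eU a, Q8_mk, Q8_mk] at this
      exact add_left_cancel this)
  have hf : f = iota (π, ρ) := iso_ext fun v => by
    rw [app_iota]
    conv_lhs => rw [← mk_pw_pu v, show mk (pw v) (pu v) = mk (pw v) 0 + mk 0 (pu v) by
      rw [← mk_add, add_zero, zero_add], app_add, eW, eU, ← mk_add, add_zero, zero_add]
    exact congrArg₂ mk (hπ _) (hρ _)
  refine ⟨π, ρ, hf, ?_⟩
  rw [hf, iota_pair, iota_pair] at h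
  exact (iota_inj h).2

/-- The reflection in a vector of the first block. -/
theorem iota_swap_not_mem : iota (Equiv.swap 0 1, 1) ∉ Omega (ZMod 2) Q8 ∧
    iota (1, Equiv.swap 0 1) ∉ Omega (ZMod 2) Q8 := by
  have key : ∀ p : Equiv.Perm (Fin 5) × Equiv.Perm (Fin 5), ∀ a : V8, Q8 a = 1 →
      (∀ v, blockEnd p v = v + QuadraticMap.polar Q8 a v • a) → iota p ∉ Omega (ZMod 2) Q8 := by
    intro p a ha hp hm
    have hne : Q8 a ≠ 0 := by rw [ha]; exact one_ne_zero
    have e : iota p = refl hnd hne := by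
      refine Subtype.ext (gl_ext fun v => ?_)
      show blockHom p *ᵥ v = _
      rw [blockHom_mulVec, hp, coe_refl hnd, reflection_mulVec hnd hne, ha, inv_one, one_mul]
      funext i
      simp only [Pi.add_apply, Pi.sub_apply, CharTwo.sub_eq_add]
      first | rfl | done
    rw [e] at hm
    have h1 := (mem_omega_iff_even hnd two_zero hexc (refl hnd hne)).1 hm
    rw [coe_refl hnd] at h1
    exact (invariants_refl hnd hne).1 h1
  exact ⟨key _ (mk (pt 0 + pt 1) 0) (by decide) (by decide +kernel),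
    key _ (mk 0 (pt 0 + pt 1)) (by decide) (by decide +kernel)⟩

/-- Membership in `Omega` is parity. -/
theorem iota_mem_iff (π ρ : Equiv.Perm (Fin 5)) :
    iota (π, ρ) ∈ Omega (ZMod 2) Q8 ↔ Equiv.Perm.sign π = Equiv.Perm.sign ρ := by
  classical
  let χ : O8 →* ℤˣ := MonoidHom.mk' (fun f => if f ∈ Omega (ZMod 2) Q8 then 1 else -1) fun a b => by
    by_cases ha : a ∈ Omega (ZMod 2) Q8 <;> by_cases hb : b ∈ Omega (ZMod 2) Q8 <;>
      simp [ha, hb, Subgroup.mul_mem_iff_of_index_two index_two]
  have hχ : ∀ f, χ f = if f ∈ Omega (ZMod 2) Q8 then 1 else -1 := fun f => rfl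
  have hsur : ∀ φ : Equiv.Perm (Fin 5) →* ℤˣ, φ (Equiv.swap 0 1) = -1 → φ = Equiv.Perm.sign := by
    intro φ hφ
    refine Equiv.Perm.eq_sign_of_surjective_hom fun u => ?_
    rcases Int.units_eq_one_or u with rfl | rfl
    · exact ⟨1, map_one _⟩
    · exact ⟨_, hφ⟩
  have h1 := hsur (χ.comp (iota.comp (MonoidHom.inl _ _))) (by
    show χ (iota (Equiv.swap 0 1, 1)) = -1
    rw [hχ, if_neg iota_swap_not_mem.1])
  have h2 := hsur (χ.comp (iota.comp (MonoidHom.inr _ _))) (by
    show χ (iota (1, Equiv.swap 0 1)) = -1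
    rw [hχ, if_neg iota_swap_not_mem.2])
  have e : χ (iota (π, ρ)) = Equiv.Perm.sign π * Equiv.Perm.sign ρ := by
    rw [show iota (π, ρ) = iota (π, 1) * iota (1, ρ) by rw [iota_pair, mul_one, one_mul], map_mul]
    exact congrArg₂ (· * ·) (DFunLike.congr_fun h1 π) (DFunLike.congr_fun h2 ρ)
  rw [hχ] at e
  have key : ∀ a b : ℤˣ, (1 = a * b → a = b) := by decide
  constructor
  · intro h
    rw [if_pos h] at e
    exact key _ _ e
  · intro h
    by_contra hn
    rw [if_neg hn, h, Int.units_mul_self] at e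
    exact absurd e (by decide)

/-- `Omega` is transitive on the singular vectors. -/
theorem exists_omega_map {x y : V8} (hx : Q8 x = 0) (hx0 : x ≠ 0) (hy : Q8 y = 0) (hy0 : y ≠ 0) :
    ∃ f ∈ Omega (ZMod 2) Q8, app f x = y := by
  have hz : ∀ c : ZMod 2, c = 0 ∨ c = 1 := by decide
  have hq : ∀ a : V8, Q8 a = 0 → ∀ u ∈ Submodule.span (ZMod 2) ({a} : Set V8), Q8 u = 0 := by
    intro a ha u hu
    obtain ⟨c, rfl⟩ := Submodule.mem_span_singleton.1 hu
    rcases hz c with rfl | rfl
    · rw [zero_smul]; decide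
    · rwa [one_smul]
  obtain ⟨f, hf, e⟩ := exists_omega_map_singular hnd hexc (hq x hx) (hq y hy)
    (by rw [finrank_span_singleton hx0, finrank_span_singleton hy0])
    (by rw [finrank_span_singleton hx0]; simp)
  refine ⟨f, hf, ?_⟩
  have hm : app f x ∈ Submodule.span (ZMod 2) ({y} : Set V8) :=
    e ▸ ⟨x, Submodule.mem_span_singleton_self x, rfl⟩
  obtain ⟨c, hc⟩ := Submodule.mem_span_singleton.1 hm
  rcases hz c with rfl | rfl
  · rw [zero_smul] at hc
    exact absurd (app_injective f (hc.symm.trans (app_zero f).symm)) hx0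
  · rwa [one_smul, eq_comm] at hc

end CfsgLib.ConwayFive
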