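import Cfsg.Agent.ConwayFive.Frame

/-!
The centralizer of `b` in the centralizer of `z`, and fusion inside the centralizer of `b`.
-/

set_option autoImplicit false
set_option linter.unusedSectionVars false
set_option synthInstance.maxSize 2000

namespace CfsgLib.ConwayFive

open Cfsg CfsgLib.ExtraspecialTwo CfsgLib.ExtraspecialTwo.MinusFour

variable {G : Type*} [Group G] [Finite G]

theorem qV_zero : qV (0 : V4) = 0 := by decide

theorem pt_polar : qV ((0 : V4) + 0) + qV 0 + qV 0 + (qV (pt 0 + pt 1) + qV (pt 0) + qV (pt 1)) ≠ 0 := by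
  decide

theorem rot_add_surj : ∀ p : V4, ∃ c, MinusFour.act rot c + c = p := by decide

theorem qV_polar_exists : ∀ a : V4, a ≠ 0 → ∃ c, qV (a + c) + qV a + qV c = 1 := by decide

namespace Coords

variable {z : G} {Q : Subgroup G} {pr : G → V8} {act : G → O8} (h : Coords z Q pr act)
include h

theorem conj (g : G) : Coords (g * z * g⁻¹) (Q.map (MulAut.conj g).toMonoidHom)
    (fun a => pr (g⁻¹ * a * g)) (fun c => act (g⁻¹ * c * g)) := by
  have hmem : ∀ a, a ∈ Q.map (MulAut.conj g).toMonoidHom → g⁻¹ * a * g ∈ Q := by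
    rintro _ ⟨x, hx, rfl⟩
    simpa [MulAut.conj_apply, mul_assoc] using hx
  have hcomm : ∀ c, c * (g * z * g⁻¹) = g * z * g⁻¹ * c → g⁻¹ * c * g * z = z * (g⁻¹ * c * g) := by
    intro c hc
    calc g⁻¹ * c * g * z = g⁻¹ * (c * (g * z * g⁻¹)) * g := by group
      _ = g⁻¹ * (g * z * g⁻¹ * c) * g := by rw [hc]
      _ = _ := by group
  have hback : ∀ c, c * z = z * c → g * c * g⁻¹ * (g * z * g⁻¹) = g * z * g⁻¹ * (g * c * g⁻¹) := by
    intro c hc
    calc g * c * g⁻¹ * (g * z * g⁻¹) = g * (c * z) * g⁻¹ := by group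
      _ = g * (z * c) * g⁻¹ := by rw [hc]
      _ = _ := by group
  refine ⟨h.setting.conj g, ?_, fun a ha b hb => ?_, fun a ha => ?_, fun v => ?_, fun a ha => ?_,
    fun a b ha hb => ?_, fun c hc a ha => ?_, fun c hc => ?_, fun f => ?_⟩
  · rw [Subgroup.card_map_of_injective (f := (MulAut.conj g).toMonoidHom) (MulAut.conj g).injective,
      h.card_Q]
  · show pr (g⁻¹ * (a * b) * g) = _
    rw [← h.pr_mul _ (hmem a ha) _ (hmem b hb)]
    congr 1
    group
  · show pr (g⁻¹ * a * g) = 0 ↔ _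
    rw [h.pr_zero _ (hmem a ha)]
    constructor
    · rintro (e | e)
      · left; calc a = g * (g⁻¹ * a * g) * g⁻¹ := by group
          _ = 1 := by rw [e]; group
      · right; calc a = g * (g⁻¹ * a * g) * g⁻¹ := by group
          _ = _ := by rw [e]
    · rintro (rfl | rfl)
      · left; group
      · right; group
  · obtain ⟨a, ha, e⟩ := h.pr_surj v
    refine ⟨g * a * g⁻¹, ⟨a, ha, rfl⟩, ?_⟩
    rw [← e]; congr 1; group
  · show Q8 (pr (g⁻¹ * a * g)) = 0 ↔ _
    rw [h.pr_sq _ (hmem a ha)]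
    constructor
    · intro e
      calc a * a = g * (g⁻¹ * a * g * (g⁻¹ * a * g)) * g⁻¹ := by group
        _ = 1 := by rw [e]; group
    · intro e
      calc g⁻¹ * a * g * (g⁻¹ * a * g) = g⁻¹ * (a * a) * g := by group
        _ = 1 := by rw [e]; group
  · show act (g⁻¹ * (a * b) * g) = _
    rw [← h.act_mul _ _ (hcomm a ha) (hcomm b hb)]
    congr 1
    group
  · show pr (g⁻¹ * (c * a * c⁻¹) * g) = _
    rw [← h.act_pr _ (hcomm c hc) _ (hmem a ha)]
    congr 1
    group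
  · show act (g⁻¹ * c * g) = 1 ↔ _
    rw [h.act_ker _ (hcomm c hc), LargeExtraspecial.mem_conj_iff]
  · rw [h.act_range f]
    constructor
    · rintro ⟨c, hc, rfl⟩
      exact ⟨g * c * g⁻¹, hback c hc, by congr 1; group⟩
    · rintro ⟨c, hc, rfl⟩
      exact ⟨g⁻¹ * c * g, hcomm c hc, rfl⟩

theorem mem_conj_swap {g : G} (hg : g * z * g⁻¹ ∈ Q) (hgz : g * z * g⁻¹ ≠ z) :
    z ∈ Q.map (MulAut.conj g).toMonoidHom :=
  LargeExtraspecial.mem_conj_of_conj_mem h.setting (by rw [h.card_Q]; norm_num) g hg hgz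

/-- An element of odd order five fixing `a` and centralizing `z` centralizes an element moving `a`. -/
theorem exists_move_fixed {b a : G} (hb : b * z = z * b) (ho : orderOf b = 5) (ha : a ∈ Q)
    (hab : a * b = b * a) (h0 : pr a ≠ 0) : ∃ q ∈ Q, q * b = b * q ∧ q * a * q⁻¹ = a * z := by
  obtain ⟨v, hv⟩ := exists_nonperp _ h0
  set β := act b with hβ
  have hβ5 : β ^ 5 = 1 := by
    rw [hβ, ← h.act_pow hb, ← ho, pow_orderOf_eq_one, h.act_one]
  have hfix : app β (pr a) = pr a := by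
    rw [hβ, ← h.act_pr b hb a ha, ← hab, mul_inv_cancel_right]
  set y := v + app β v + app (β ^ 2) v + app (β ^ 3) v + app (β ^ 4) v with hy
  have hpow : ∀ n, Bf (app (β ^ n) v) (pr a) = 1 := by
    intro n
    induction n with
    | zero => rw [pow_zero, app_one, Bf_comm]; exact hv
    | succ n ih =>
      rw [pow_succ', app_mul]
      conv_lhs => arg 2; rw [← hfix]
      rw [app_Bf, ih]
  have hyb : app β y = y := by
    simp only [hy, app_add, ← app_mul, ← pow_succ', ← pow_two]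
    rw [hβ5, app_one]; abel
  have hyB : Bf y (pr a) = 1 := by
    simp only [hy, Bf_add_left, hpow, show Bf (app β v) (pr a) = 1 by simpa using hpow 1,
      show Bf v (pr a) = 1 by rw [Bf_comm]; exact hv]
    decide
  obtain ⟨q, hq, e⟩ := h.pr_surj y
  refine ⟨q, hq, ?_, h.conj_eq_mul_z hq ha (by rw [e]; exact hyB)⟩
  exact (mul_inv_eq_iff_eq_mul.1 (h.conj_fix hb (by rw [ho]; decide) hq (by rw [e]; exact hyb))).symm

end Coords

theorem perm_involution_facts : ∀ π : Equiv.Perm (Fin 5), π * π = 1 → π ≠ 1 →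
    Equiv.Perm.sign π = 1 →
      (∀ a, MinusFour.act π a = a ↔ ∃ c, a = MinusFour.act π c + c) := by decide +kernel

theorem perm_involution_singular : ∀ π : Equiv.Perm (Fin 5), π * π = 1 → π ≠ 1 →
    Equiv.Perm.sign π = 1 → ∀ a a' : V4, MinusFour.act π a = a → qV a = 0 →
      MinusFour.act π a' = a' → qV a' = 0 → qV (a + a') = 0 := by decide +kernel

theorem perm_involution_orth : ∀ π : Equiv.Perm (Fin 5), π * π = 1 → π ≠ 1 →
    Equiv.Perm.sign π = 1 → ∀ a : V4,
      (∀ c, MinusFour.act π c = c → qV (a + c) + qV a + qV c = 0) → MinusFour.act π a = a := by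
  decide +kernel

theorem perm_involution_image : ∀ π : Equiv.Perm (Fin 5), π * π = 1 → π ≠ 1 →
    Equiv.Perm.sign π = 1 → ∃ c, qV (MinusFour.act π c + c) = 1 := by decide +kernel

theorem Bf_mk (a b c d : V4) :
    Bf (mk a b) (mk c d) = (qV (a + c) + qV a + qV c) + (qV (b + d) + qV b + qV d) := by
  rw [Bf, ← mk_add, Q8_mk, Q8_mk, Q8_mk]; ring

/-- A subspace invariant under the cycle and containing a non-zero vector is everything. -/
theorem eq_univ_of_rot {S : V4 → Prop} (hadd : ∀ a b, S a → S b → S (a + b)) (h0 : S 0)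
    (hrot : ∀ a, S a → S (MinusFour.act rot a)) {v : V4} (hv : v ≠ 0) (hS : S v) : ∀ a, S a := by
  have hrn : ∀ (n : ℕ) a, S a → S (MinusFour.act (rot ^ n) a) := by
    intro n
    induction n with
    | zero => intro a ha; rwa [pow_zero, act_one']
    | succ n ih => intro a ha; rw [pow_succ', act_mul']; exact hrot _ (ih a ha)
  have hsm : ∀ (c : ZMod 2) a, S a → S (c • a) := fun c a ha => by
    rcases zmod_two_cases c with rfl | rfl
    · rwa [zero_smul]
    · rwa [one_smul]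
  obtain ⟨c, hc⟩ := exists_pt_zero v hv
  have h1 : S (pt 0) := hc ▸ hadd _ _ (hadd _ _ (hadd _ _ (hadd _ _ (hsm _ _ hS)
    (hsm _ _ (hrot _ hS))) (hsm _ _ (hrn 2 _ hS))) (hsm _ _ (hrn 3 _ hS))) (hsm _ _ (hrn 4 _ hS))
  have hall : ∀ k, ∃ n : ℕ, n < 5 ∧ (rot ^ n) 0 = k := by decide
  have hpt : ∀ k, S (pt k) := fun k => by
    obtain ⟨n, -, e⟩ := hall k
    rw [← e, ← act_pt]
    exact hrn n _ h1
  intro a
  rw [eq_sum_pt a, Fin.sum_univ_four]
  exact hadd _ _ (hadd _ _ (hadd _ _ (hsm _ _ (hpt _)) (hsm _ _ (hpt _))) (hsm _ _ (hpt _)))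
    (hsm _ _ (hpt _))

/-- The involution of the first block is no commutator in the two-groups normalized by the cycle. -/
theorem no_commutator {π : Equiv.Perm (Fin 5)} (hπ : π * π = 1) (hπ1 : π ≠ 1)
    (hs : Equiv.Perm.sign π = 1) (P : Subgroup O8) (hP : IsPGroup 2 P)
    (hn : ∀ p ∈ P, iota (1, rot) * p * (iota (1, rot))⁻¹ ∈ P)
    (hc : ∀ p ∈ P, p * iota (π, 1) = iota (π, 1) * p)
    {u1 u2 : O8} (h1 : u1 ∈ P) (h2 : u2 ∈ P)
    (f1 : ∀ a, MinusFour.act π a = a → app u1 (mk a 0) = mk a 0)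
    (f2 : ∀ a, MinusFour.act π a = a → app u2 (mk a 0) = mk a 0)
    (e : u1 * u2 = iota (π, 1) * (u2 * u1)) : False := by
  classical
  haveI : Fact (Nat.Prime 2) := ⟨Nat.prime_two⟩
  set β := iota (1, rot) with hβ
  -- the fixed space of the involution
  let Fx : V8 → Prop := fun v => MinusFour.act π (pw v) = pw v
  let Zs : V8 → Prop := fun v => pu v = 0 ∧ MinusFour.act π (pw v) = pw v
  have happT : ∀ v, app (iota (π, 1)) v = mk (MinusFour.act π (pw v)) (pu v) := fun v => by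
    rw [app_iota, act_one']
  have hFx : ∀ v, Fx v ↔ app (iota (π, 1)) v = v := fun v => by
    rw [happT]
    exact ⟨fun hv => vec_ext hv rfl, fun hv => congrArg pw hv⟩
  have hFp : ∀ p ∈ P, ∀ v, Fx v → Fx (app p v) := fun p hp v hv => by
    rw [hFx, ← app_mul, ← hc p hp, app_mul, (hFx v).1 hv]
  have hfacts := perm_involution_facts π hπ hπ1 hs
  have hZs : ∀ v, Zs v ↔ ∃ y, v = app (iota (π, 1)) y + y := fun v => by
    constructor
    · rintro ⟨hu, hw⟩
      obtain ⟨c, hc'⟩ := (hfacts _).1 hw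
      refine ⟨mk c 0, ?_⟩
      rw [happT, ← mk_add, pw_mk, pu_mk, add_zero, ← hc', ← hu, mk_pw_pu]
    · rintro ⟨y, rfl⟩
      rw [happT]
      refine ⟨by rw [map_add, pu_mk, add_self4], ?_⟩
      rw [map_add, pw_mk]
      exact (hfacts _).2 ⟨pw y, rfl⟩
  have hZp : ∀ p ∈ P, ∀ v, Zs v → Zs (app p v) := fun p hp v hv => by
    obtain ⟨y, rfl⟩ := (hZs v).1 hv
    refine (hZs _).2 ⟨app p y, ?_⟩
    rw [app_add, ← app_mul, hc p hp, app_mul]
  have hmk : ∀ p : V4, Fx (mk 0 p) := fun p => by simp [Fx]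
  -- the action on the quotient
  let bar : ↥P → V4 → V4 := fun p a => pu (app (p : O8) (mk 0 a))
  have hbar_one : ∀ a, bar 1 a = a := fun a => by simp [bar, app_one]
  have hbar_mul : ∀ p q a, bar (p * q) a = bar p (bar q a) := by
    intro p q a
    show pu (app ((p : O8) * q) (mk 0 a)) = pu (app (p : O8) (mk 0 (pu (app (q : O8) (mk 0 a)))))
    rw [app_mul]
    have hz : Zs (mk (pw (app (q : O8) (mk 0 a))) 0) := ⟨rfl, hFp q q.2 _ (hmk a)⟩
    conv_lhs => rw [← mk_pw_pu (app (q : O8) (mk 0 a))]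
    rw [show mk (pw (app (q : O8) (mk 0 a))) (pu (app (q : O8) (mk 0 a))) =
      mk (pw (app (q : O8) (mk 0 a))) 0 + mk 0 (pu (app (q : O8) (mk 0 a))) by
        rw [← mk_add, add_zero, zero_add], app_add, map_add, (hZp p p.2 _ hz).1, zero_add]
  letI : MulAction ↥P V4 :=
    { smul := bar, one_smul := hbar_one, mul_smul := hbar_mul }
  have hsm : ∀ (p : ↥P) a, p • a = bar p a := fun _ _ => rfl
  have hcardV : Nat.card V4 = 16 := by simp
  have hmod := hP.card_modEq_card_fixedPoints V4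
  rw [hcardV] at hmod
  have h0 : (0 : V4) ∈ MulAction.fixedPoints ↥P V4 := fun p => by
    rw [hsm]
    show pu (app (p : O8) (mk 0 0)) = 0
    rw [show mk (0 : V4) 0 = 0 from vec_ext rfl rfl, app_zero, map_zero]
  obtain ⟨v, hv, hv0⟩ : ∃ v ∈ MulAction.fixedPoints ↥P V4, v ≠ (0 : V4) := by
    by_contra hcon
    push Not at hcon
    have : MulAction.fixedPoints ↥P V4 = {(0 : V4)} :=
      Set.Subset.antisymm (fun x hx => hcon x hx) (Set.singleton_subset_iff.2 h0)
    rw [this, Nat.card_coe_set_eq, Set.ncard_singleton] at hmod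
    simp [Nat.ModEq] at hmod
  have hall : ∀ a, ∀ p : ↥P, bar p a = a := by
    refine eq_univ_of_rot (S := fun a => ∀ p : ↥P, bar p a = a) ?_ (fun p => h0 p) ?_ hv0 hv
    · intro a b ha hb p
      show pu (app (p : O8) (mk 0 (a + b))) = a + b
      rw [show mk (0 : V4) (a + b) = mk 0 a + mk 0 b by rw [← mk_add, add_zero], app_add, map_add]
      exact congrArg₂ (· + ·) (ha p) (hb p)
    · intro a ha p
      have hp' : β⁻¹ * (p : O8) * β ∈ P := by
        have : ∀ n : ℕ, β ^ n * (p : O8) * (β ^ n)⁻¹ ∈ P := by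
          intro n
          induction n with
          | zero => simp
          | succ n ih =>
            rw [pow_succ', mul_inv_rev, show β * β ^ n * (p : O8) * ((β ^ n)⁻¹ * β⁻¹) =
              β * (β ^ n * p * (β ^ n)⁻¹) * β⁻¹ by group]
            exact hn _ ih
        have h5 : β ^ 5 = 1 := by rw [hβ, ← map_pow, Prod.pow_mk, rot_pow_five, one_pow]; exact map_one iota
        have := this 4
        rwa [show β ^ 4 = β⁻¹ by rw [eq_inv_iff_mul_eq_one, ← pow_succ, h5], inv_inv] at this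
      have := ha ⟨_, hp'⟩
      simp only [bar] at this
      show pu (app (p : O8) (mk 0 (MinusFour.act rot a))) = MinusFour.act rot a
      conv_rhs => rw [← this]
      rw [show MinusFour.act rot (pu (app (β⁻¹ * (p : O8) * β) (mk 0 a))) =
        pu (app β (app (β⁻¹ * (p : O8) * β) (mk 0 a))) by rw [hβ, app_iota, pu_mk]]
      rw [← app_mul, show β * (β⁻¹ * (p : O8) * β) = (p : O8) * β by group, app_mul]
      congr 2
      rw [hβ, app_iota]; simp
  -- the displacement of a single element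
  let Sg : V8 → Prop := fun d => pu d = 0 ∧ MinusFour.act π (pw d) = pw d ∧ qV (pw d) = 0
  have hdisp : ∀ u ∈ P, (∀ a, MinusFour.act π a = a → app u (mk a 0) = mk a 0) →
      ∀ d, Fx d → Sg (app u d + d) := by
    intro u hu fu d hd
    have e0 : pu (app u (mk 0 (pu d))) = pu d := hall (pu d) ⟨u, hu⟩
    have e1 : app u d + d = app u (mk 0 (pu d)) + mk 0 (pu d) := by
      have ed : d = mk (pw d) 0 + mk 0 (pu d) := by rw [← mk_add, add_zero, zero_add, mk_pw_pu]
      conv_lhs => rw [ed, app_add, fu _ hd]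
      rw [add_add_add_comm, add_self8, zero_add]
    rw [e1]
    refine ⟨by rw [map_add, e0, pu_mk, add_self4], ?_, ?_⟩
    · rw [map_add, pw_mk, add_zero]; exact hFp u hu _ (hmk _)
    · rw [map_add, pw_mk, add_zero]
      have := app_q u (mk 0 (pu d))
      rw [← mk_pw_pu (app u (mk 0 (pu d))), Q8_mk, Q8_mk, e0] at this
      have hz : qV (0 : V4) = 0 := qV_zero
      linear_combination this + hz
  have hout : ∀ u, (∀ a, MinusFour.act π a = a → app u (mk a 0) = mk a 0) →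
      ∀ v, Fx (app u v + v) := by
    intro u fu v
    refine perm_involution_orth π hπ hπ1 hs _ fun c hc' => ?_
    have h3 : Bf (app u v + v) (mk c 0) = 0 := by
      rw [Bf_add_left]
      conv_lhs => arg 1; rw [← fu c hc', app_Bf]
      exact CharTwo.add_self_eq_zero _
    rw [← mk_pw_pu (app u v + v), Bf_mk] at h3
    have hz : qV (0 : V4) = 0 := qV_zero
    simp only [add_zero, hz, CharTwo.add_self_eq_zero] at h3
    exact h3
  -- the commutator
  obtain ⟨c, hc1⟩ := perm_involution_image π hπ hπ1 hs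
  obtain ⟨v, hv'⟩ : ∃ v, app (u2 * u1) v = mk c 0 :=
    ⟨app (u2 * u1)⁻¹ (mk c 0), by rw [← app_mul, mul_inv_cancel, app_one]⟩
  have key : app (iota (π, 1)) (mk c 0) + mk c 0 =
      (app u1 (app u2 v + v) + (app u2 v + v)) + (app u2 (app u1 v + v) + (app u1 v + v)) := by
    conv_lhs => rw [← hv', ← app_mul, ← e]
    rw [app_mul, app_mul, app_add, app_add]
    have : ∀ p q r s x : V8, p + q = (p + r + (s + x)) + (q + s + (r + x)) := by
      intro p q r s x
      calc p + q = p + q + ((r + r) + (s + s) + (x + x)) := by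
            simp only [add_self8, add_zero]
        _ = _ := by abel
    exact this _ _ _ _ _
  obtain ⟨g1, g1', g1''⟩ := hdisp u1 h1 f1 _ (hout u2 f2 v)
  obtain ⟨g2, g2', g2''⟩ := hdisp u2 h2 f2 _ (hout u1 f1 v)
  have := congrArg pw key
  rw [happT, map_add, pw_mk, pw_mk, map_add] at this
  rw [this, perm_involution_singular π hπ hπ1 hs _ _ g1' g1'' g2' g2''] at hc1
  exact zero_ne_one hc1

namespace Frame

variable {z b : G} {Q : Subgroup G} {pr : G → V8} {act : G → O8} (F : Frame z b Q pr act)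
include F

theorem b_pow_five : b ^ 5 = 1 := by rw [← F.b_ord, pow_orderOf_eq_one]

theorem odd_b : Odd (orderOf b) := by rw [F.b_ord]; decide

theorem app_b (v : V8) : app (act b) v = ConwayFive.mk (pw v) (MinusFour.act rot (pu v)) := by
  rw [F.act_b, app_iota, act_one']

theorem fix_iff {a : G} (ha : a ∈ Q) : a * b = b * a ↔ pu (pr a) = 0 := by
  constructor
  · intro e
    have h := F.coords.act_pr b F.b_z a ha
    rw [← e, mul_inv_cancel_right, F.app_b] at h
    exact fixed_rot _ (congrArg pu h).symm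
  · intro e
    refine (mul_inv_eq_iff_eq_mul.1 (F.coords.conj_fix F.b_z F.odd_b ha ?_)).symm
    rw [F.app_b, e, map_zero, ← e, mk_pw_pu]

theorem exists_comm_form {a : G} (ha : a ∈ Q) (hw : pw (pr a) = 0) :
    ∃ x ∈ Q, pw (pr x) = 0 ∧ (a = b * x * b⁻¹ * x⁻¹ ∨ a = b * x * b⁻¹ * x⁻¹ * z) := by
  obtain ⟨c, hc⟩ := rot_add_surj (pu (pr a))
  obtain ⟨x, hx, e⟩ := F.coords.pr_surj (ConwayFive.mk 0 c)
  have hbx := F.coords.conj_mem F.b_z hx
  refine ⟨x, hx, by rw [e, pw_mk], F.coords.pr_congr ha (Q.mul_mem hbx (Q.inv_mem hx)) ?_⟩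
  rw [F.coords.pr_mul _ hbx _ (Q.inv_mem hx), F.coords.pr_inv hx, F.coords.act_pr b F.b_z x hx, e,
    F.app_b, pw_mk, pu_mk, ← mk_add, add_zero, hc, ← hw, mk_pw_pu]

/-- A lift centralizing `b`. -/
theorem exists_lift {f : O8} (hf : f ∈ Omega (ZMod 2) Q8) (hb : f * iota (1, rot) = iota (1, rot) * f) :
    ∃ c, c * z = z * c ∧ c * b = b * c ∧ act c = f := by
  obtain ⟨c0, hc0, rfl⟩ := F.coords.exists_act hf
  set b' := c0 * b * c0⁻¹ with hb'
  have hb'z : b' * z = z * b' := F.coords.comm_conj hc0 F.b_z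
  set x := b⁻¹ * b' with hx
  have hxQ : x ∈ Q := by
    have hxz : x * z = z * x := F.coords.comm_mul (F.coords.comm_inv F.b_z) hb'z
    refine (F.coords.act_ker x hxz).1 ?_
    rw [hx, F.coords.act_mul _ _ (F.coords.comm_inv F.b_z) hb'z, F.coords.act_inv F.b_z, hb',
      F.coords.act_conj hc0 F.b_z, F.act_b, hb]
    group
  have hb'5 : b' ^ 5 = 1 := by rw [hb', conj_pow, F.b_pow_five]; group
  have hbiz : b⁻¹ * z = z * b⁻¹ := F.coords.comm_inv F.b_z
  have hconjQ : ∀ a ∈ Q, b⁻¹ * a * b ∈ Q := fun a ha => by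
    have := F.coords.conj_mem hbiz ha
    rwa [inv_inv] at this
  have hpw : ∀ a ∈ Q, pw (pr (b⁻¹ * a * b)) = pw (pr a) := fun a ha => by
    have h := F.coords.act_pr _ hbiz a ha
    rw [inv_inv, F.coords.act_inv F.b_z] at h
    have h2 : app (act b) (pr (b⁻¹ * a * b)) = pr a := by
      rw [h, ← app_mul, mul_inv_cancel, app_one]
    rw [← h2, F.app_b, pw_mk]
  -- the fixed component of `x` vanishes
  have hxw : pw (pr x) = 0 := by
    have key : ∀ n : ℕ, ∃ y ∈ Q, b' ^ n = b ^ n * y ∧ pw (pr y) = n • pw (pr x) := by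
      intro n
      induction n with
      | zero => exact ⟨1, Q.one_mem, by simp, by rw [F.coords.pr_one, map_zero, zero_smul]⟩
      | succ n ih =>
        obtain ⟨y, hy, e, ey⟩ := ih
        refine ⟨b⁻¹ * y * b * x, Q.mul_mem (hconjQ y hy) hxQ, ?_, ?_⟩
        · rw [pow_succ, e, pow_succ, show b' = b * x by rw [hx, mul_inv_cancel_left]]; group
        · rw [F.coords.pr_mul _ (hconjQ y hy) _ hxQ, map_add, hpw y hy, ey, succ_nsmul]
    obtain ⟨y, -, e, ey⟩ := key 5
    rw [hb'5, F.b_pow_five, one_mul] at e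
    rw [← e, F.coords.pr_one, map_zero] at ey
    calc pw (pr x) = 5 • pw (pr x) := by
          rw [show (5 : ℕ) • pw (pr x) = (pw (pr x) + pw (pr x)) + (pw (pr x) + pw (pr x)) + pw (pr x) by
            abel, add_self4]
          simp
      _ = 0 := ey.symm
  obtain ⟨c, hc⟩ := rot_add_surj (MinusFour.act rot (pu (pr x)))
  obtain ⟨y, hy, ey⟩ := F.coords.pr_surj (ConwayFive.mk 0 c)
  have hyb : y * b * y⁻¹ = b' := by
    set w := b⁻¹ * y * b * y⁻¹ with hw
    have hwQ : w ∈ Q := Q.mul_mem (hconjQ y hy) (Q.inv_mem hy)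
    have ew : pr w = pr x := by
      refine app_injective (act b) ?_
      rw [hw, F.coords.pr_mul _ (hconjQ y hy) _ (Q.inv_mem hy), F.coords.pr_inv hy, app_add]
      have h := F.coords.act_pr b F.b_z _ (hconjQ y hy)
      rw [show b * (b⁻¹ * y * b) * b⁻¹ = y by group] at h
      rw [← h, ey, F.app_b, F.app_b, pw_mk, pu_mk, ← mk_add, zero_add, hxw, add_comm, hc]
    rcases F.coords.pr_congr hwQ hxQ ew with e' | e'
    · calc y * b * y⁻¹ = b * w := by rw [hw]; group
        _ = b' := by rw [e', hx, mul_inv_cancel_left]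
    · exfalso
      have h1 : y * b * y⁻¹ = b' * z := by
        calc y * b * y⁻¹ = b * w := by rw [hw]; group
          _ = b' * z := by rw [e', hx]; group
      have h2 : (b' * z) ^ 5 = 1 := by rw [← h1, conj_pow, F.b_pow_five]; group
      rw [(show Commute b' z from hb'z).mul_pow, hb'5, one_mul, show 5 = 2 * 2 + 1 from rfl, pow_succ,
        pow_mul, show z ^ 2 = 1 by rw [sq, F.coords.z_sq], one_pow, one_mul] at h2
      exact F.coords.z_ne h2
  refine ⟨y⁻¹ * c0, F.coords.comm_mul (F.coords.comm_inv (F.coords.comm_Q hy)) hc0, ?_, ?_⟩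
  · calc y⁻¹ * c0 * b = y⁻¹ * b' * c0 := by rw [hb']; group
      _ = y⁻¹ * (y * b * y⁻¹) * c0 := by rw [hyb]
      _ = _ := by group
  · rw [F.coords.act_mul _ _ (F.coords.comm_inv (F.coords.comm_Q hy)) hc0,
      F.coords.act_inv (F.coords.comm_Q hy), F.coords.act_Q hy, inv_one, one_mul]

/-- The elements centralizing `z` and `b`. -/
theorem act_cases {c : G} (hc : c * z = z * c) (hb : c * b = b * c) :
    ∃ (π : Equiv.Perm (Fin 5)) (i : Fin 5), act c = iota (π, rot ^ (i : ℕ)) ∧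
      Equiv.Perm.sign π = 1 := by
  obtain ⟨π, ρ, e, hρ⟩ := comm_rot (f := act c) (by
    rw [← F.act_b, ← F.coords.act_mul _ _ hc F.b_z, hb, F.coords.act_mul _ _ F.b_z hc])
  obtain ⟨i, rfl⟩ := rot_comm ρ hρ
  refine ⟨π, i, e, ?_⟩
  have := (iota_mem_iff π (rot ^ (i : ℕ))).1 (e ▸ F.coords.act_mem hc)
  rw [this, map_pow, sign_rot, one_pow]

theorem comm_second {c : G} (hc : c * z = z * c) (hb : c * b = b * c) {π : Equiv.Perm (Fin 5)}
    (e : act c = iota (π, 1)) {a : G} (ha : a ∈ Q) (hw : pw (pr a) = 0) : c * a = a * c := by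
  have hfix : ∀ x ∈ Q, pw (pr x) = 0 → c * x * c⁻¹ = x ∨ c * x * c⁻¹ = x * z := fun x hx hxw =>
    F.coords.pr_congr (F.coords.conj_mem hc hx) hx (by
      rw [F.coords.act_pr c hc x hx, e, app_iota, act_one', hxw, map_zero, ← hxw, mk_pw_pu])
  have hcz : c * z * c⁻¹ = z := by rw [hc, mul_inv_cancel_right]
  obtain ⟨x, hx, hxw, hform⟩ := F.exists_comm_form ha hw
  have h1 : c * (b * x * b⁻¹ * x⁻¹) * c⁻¹ = b * x * b⁻¹ * x⁻¹ := by
    have hcb : c * b * c⁻¹ = b := by rw [hb, mul_inv_cancel_right]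
    have : c * (b * x * b⁻¹ * x⁻¹) * c⁻¹ =
        (c * b * c⁻¹) * (c * x * c⁻¹) * (c * b * c⁻¹)⁻¹ * (c * x * c⁻¹)⁻¹ := by group
    rw [this, hcb]
    rcases hfix x hx hxw with e' | e' <;> rw [e']
    calc b * (x * z) * b⁻¹ * (x * z)⁻¹ = b * x * (z * b⁻¹) * (z⁻¹ * x⁻¹) := by group
      _ = b * x * (b⁻¹ * z) * (z⁻¹ * x⁻¹) := by rw [← F.coords.comm_inv F.b_z]
      _ = _ := by group
  refine mul_inv_eq_iff_eq_mul.1 ?_
  rcases hform with rfl | rfl
  · exact h1
  · rw [show c * (b * x * b⁻¹ * x⁻¹ * z) * c⁻¹ =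
      c * (b * x * b⁻¹ * x⁻¹) * c⁻¹ * (c * z * c⁻¹) by group, h1, hcz]

/-- No element centralizing `b` moves `z` to an involution of its centralizer outside `Q`. -/
theorem no_fusion {c t : G} (hcb : c * b = b * c) (hct : c * z * c⁻¹ = t) (htz : t * z = z * t)
    (htQ : t ∉ Q) : False := by
  classical
  haveI : Fact (Nat.Prime 2) := ⟨Nat.prime_two⟩
  set z' := c⁻¹ * z * c with hz'
  have hbz' : ∀ x, x * b = b * x → x⁻¹ * b = b * x⁻¹ := fun x hx =>
    (Commute.inv_left (show Commute x b from hx)).eq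
  have hz'z : z' * z = z * z' := by
    calc z' * z = c⁻¹ * (z * t) * c := by rw [hz', ← hct]; group
      _ = c⁻¹ * (t * z) * c := by rw [htz]
      _ = z * z' := by rw [hz', ← hct]; group
  have hz'b : z' * b = b * z' :=
    (Commute.mul_left (Commute.mul_left (hbz' c hcb) F.b_z.symm) (show Commute c b from hcb)).eq
  have hz'2 : z' * z' = 1 := by
    calc z' * z' = c⁻¹ * (z * z) * c := by rw [hz']; group
      _ = 1 := by rw [F.coords.z_sq]; group
  have hz'Q : z' ∉ Q := by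
    intro hQ
    rcases eq_or_ne z' z with e | e
    · apply htQ
      have : t = z := by
        calc t = c * z' * c⁻¹ := by rw [e, hct]
          _ = z := by rw [hz']; group
      rw [this]; exact F.coords.z_mem
    · have hQ' : c⁻¹ * z * c⁻¹⁻¹ ∈ Q := by rw [inv_inv]; exact hQ
      have := F.coords.mem_conj_swap hQ' (by rw [inv_inv]; exact e)
      rw [LargeExtraspecial.mem_conj_iff, inv_inv, hct] at this
      exact htQ this
  obtain ⟨π', i, e', -⟩ := F.act_cases hz'z hz'b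
  have hi : rot ^ (i : ℕ) = 1 := by
    have h2 := F.coords.act_mul _ _ hz'z hz'z
    rw [hz'2, F.coords.act_one, e', iota_pair, ← map_one iota] at h2
    have h3 := (iota_inj (π := 1) (ρ := 1) h2).2
    have key : ∀ j : Fin 5, 1 = rot ^ (j : ℕ) * rot ^ (j : ℕ) → rot ^ (j : ℕ) = 1 := by decide
    exact key i h3
  rw [hi] at e'
  have htb : t * b = b * t := by
    rw [← hct]
    exact (Commute.mul_left (Commute.mul_left (show Commute c b from hcb) F.b_z.symm)
      (hbz' c hcb)).eq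
  have ht2 : t * t = 1 := by
    calc t * t = c * (z * z) * c⁻¹ := by rw [← hct]; group
      _ = 1 := by rw [F.coords.z_sq]; group
  obtain ⟨π, j, e, hs⟩ := F.act_cases htz htb
  have hsq : π * π = 1 ∧ rot ^ (j : ℕ) = 1 := by
    have h2 := F.coords.act_mul _ _ htz htz
    rw [ht2, F.coords.act_one, e, iota_pair, ← map_one iota] at h2
    have h3 := iota_inj (π := 1) (ρ := 1) h2
    have key : ∀ j : Fin 5, 1 = rot ^ (j : ℕ) * rot ^ (j : ℕ) → rot ^ (j : ℕ) = 1 := by decide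
    exact ⟨h3.1.symm, key j h3.2⟩
  rw [hsq.2] at e
  have hπ1 : π ≠ 1 := fun e1 => htQ ((F.coords.act_ker t htz).1 (by rw [e, e1]; exact map_one iota))
  -- the image of the second block
  let Q2 : Subgroup G :=
    { carrier := {a | a ∈ Q ∧ pw (pr a) = 0}
      one_mem' := ⟨Q.one_mem, by rw [F.coords.pr_one, map_zero]⟩
      mul_mem' := fun {x y} hx hy => ⟨Q.mul_mem hx.1 hy.1, by
        rw [F.coords.pr_mul _ hx.1 _ hy.1, map_add, hx.2, hy.2, add_zero]⟩
      inv_mem' := fun {x} hx => ⟨Q.inv_mem hx.1, by rw [F.coords.pr_inv hx.1]; exact hx.2⟩ }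
  have hcz : ∀ a ∈ Q2, c * a * c⁻¹ * z = z * (c * a * c⁻¹) ∧ c * a * c⁻¹ * t = t * (c * a * c⁻¹) := by
    intro a ha
    constructor
    · have h0 := F.comm_second hz'z hz'b e' ha.1 ha.2
      calc c * a * c⁻¹ * z = c * (a * z') * c⁻¹ := by rw [hz']; group
        _ = c * (z' * a) * c⁻¹ := by rw [h0]
        _ = _ := by rw [hz']; group
    · calc c * a * c⁻¹ * t = c * (a * z) * c⁻¹ := by rw [← hct]; group
        _ = c * (z * a) * c⁻¹ := by rw [F.coords.comm_Q ha.1]
        _ = _ := by rw [← hct]; group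
  let φ : ↥Q2 →* O8 := MonoidHom.mk' (fun a => act (c * a * c⁻¹)) fun x y => by
    rw [← F.coords.act_mul _ _ (hcz x x.2).1 (hcz y y.2).1, Subgroup.coe_mul]
    congr 1
    group
  have hP : IsPGroup 2 φ.range := by
    have hQ : IsPGroup 2 ↥Q2 := (IsPGroup.of_card (p := 2) (n := 9)
      (show Nat.card Q = 2 ^ 9 by rw [F.coords.card_Q]; rfl)).to_le fun a ha => ha.1
    exact hQ.of_surjective φ.rangeRestrict φ.rangeRestrict_surjective
  have hbQ2 : ∀ a ∈ Q2, b * a * b⁻¹ ∈ Q2 := fun a ha => ⟨F.coords.conj_mem F.b_z ha.1, by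
    rw [F.coords.act_pr b F.b_z a ha.1, F.app_b, pw_mk]; exact ha.2⟩
  have hconj : ∀ a (ha : a ∈ Q2), φ ⟨b * a * b⁻¹, hbQ2 a ha⟩ =
      iota (1, rot) * φ ⟨a, ha⟩ * (iota (1, rot))⁻¹ := by
    intro a ha
    show act (c * (b * a * b⁻¹) * c⁻¹) = iota (1, rot) * act (c * a * c⁻¹) * (iota (1, rot))⁻¹
    rw [← F.act_b, ← F.coords.act_conj F.b_z (hcz a ha).1]
    congr 1
    calc c * (b * a * b⁻¹) * c⁻¹ = (c * b) * a * (c * b)⁻¹ := by group
      _ = (b * c) * a * (b * c)⁻¹ := by rw [hcb]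
      _ = _ := by group
  have hfix : ∀ a (ha : a ∈ Q2), (∀ p, MinusFour.act π p = p →
      app (φ ⟨b * a * b⁻¹ * a⁻¹, Q2.mul_mem (hbQ2 a ha) (Q2.inv_mem ha)⟩) (ConwayFive.mk p 0) = ConwayFive.mk p 0) := by
    intro a ha p hp
    rw [show (⟨b * a * b⁻¹ * a⁻¹, Q2.mul_mem (hbQ2 a ha) (Q2.inv_mem ha)⟩ : ↥Q2) =
      ⟨b * a * b⁻¹, hbQ2 a ha⟩ * (⟨a, ha⟩ : ↥Q2)⁻¹ from rfl, map_mul, map_inv, hconj a ha]
    set u := φ ⟨a, ha⟩ with hu
    have huT : u * iota (π, 1) = iota (π, 1) * u := by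
      show act (c * a * c⁻¹) * _ = _ * act (c * a * c⁻¹)
      rw [← e, ← F.coords.act_mul _ _ (hcz a ha).1 htz, (hcz a ha).2,
        F.coords.act_mul _ _ htz (hcz a ha).1]
    obtain ⟨q, hq⟩ := (perm_involution_facts π hsq.1 hπ1 hs p).1 hp
    set y := app u⁻¹ (ConwayFive.mk p 0) with hy
    have hyz : ∃ w, y = app (iota (π, 1)) w + w := by
      refine ⟨app u⁻¹ (ConwayFive.mk q 0), ?_⟩
      have hui : iota (π, 1) * u⁻¹ = u⁻¹ * iota (π, 1) :=
        (Commute.inv_right (show Commute (iota (π, 1)) u from huT.symm)).eq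
      rw [← app_mul, hui, app_mul, ← app_add]
      refine congrArg (app u⁻¹) ?_
      rw [app_iota, pw_mk, pu_mk, map_zero, ← mk_add, ← hq, add_zero]
    obtain ⟨w, hw⟩ := hyz
    have hyb : app (iota (1, rot))⁻¹ y = y := by
      have : app (iota (1, rot)) y = y := by
        rw [hw, app_iota π, act_one', app_iota 1, act_one', map_add, map_add, pw_mk, pu_mk, add_self4,
          map_zero]
        refine vec_ext ?_ ?_
        · rw [pw_mk, map_add, pw_mk]
        · rw [pu_mk, map_add, pu_mk, add_self4]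
      conv_lhs => rw [← this]
      rw [app_inv_app]
    rw [app_mul, app_mul, app_mul, hyb, hy, ← app_mul u, mul_inv_cancel, app_one, app_iota, act_one',
      pw_mk, pu_mk, map_zero]
  -- two elements with commutator `z`
  obtain ⟨a1, ha1, e1⟩ : ∃ a ∈ Q2, pr (b * a * b⁻¹ * a⁻¹) = ConwayFive.mk 0 (pt 0) := by
    obtain ⟨q, hq⟩ := rot_add_surj (pt 0)
    obtain ⟨a, ha, e1⟩ := F.coords.pr_surj (ConwayFive.mk 0 q)
    refine ⟨a, ⟨ha, by rw [e1, pw_mk]⟩, ?_⟩
    rw [F.coords.pr_mul _ (F.coords.conj_mem F.b_z ha) _ (Q.inv_mem ha), F.coords.pr_inv ha,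
      F.coords.act_pr b F.b_z a ha, e1, F.app_b, pw_mk, pu_mk, ← mk_add, add_zero, hq]
  obtain ⟨a2, ha2, e2⟩ : ∃ a ∈ Q2, pr (b * a * b⁻¹ * a⁻¹) = ConwayFive.mk 0 (pt 1) := by
    obtain ⟨q, hq⟩ := rot_add_surj (pt 1)
    obtain ⟨a, ha, e2⟩ := F.coords.pr_surj (ConwayFive.mk 0 q)
    refine ⟨a, ⟨ha, by rw [e2, pw_mk]⟩, ?_⟩
    rw [F.coords.pr_mul _ (F.coords.conj_mem F.b_z ha) _ (Q.inv_mem ha), F.coords.pr_inv ha,
      F.coords.act_pr b F.b_z a ha, e2, F.app_b, pw_mk, pu_mk, ← mk_add, add_zero, hq]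
  set k1 : ↥Q2 := ⟨b * a1 * b⁻¹ * a1⁻¹, Q2.mul_mem (hbQ2 a1 ha1) (Q2.inv_mem ha1)⟩ with hk1
  set k2 : ↥Q2 := ⟨b * a2 * b⁻¹ * a2⁻¹, Q2.mul_mem (hbQ2 a2 ha2) (Q2.inv_mem ha2)⟩ with hk2
  have hk : (k1 : G) * k2 = z * (k2 * k1) := by
    rcases F.coords.skew k1.2.1 k2.2.1 with ⟨e3, -⟩ | ⟨-, e3⟩
    · exfalso
      rw [hk1, hk2] at e3
      rw [e1, e2, Bf_mk] at e3
      exact pt_polar e3
    · rw [e3, F.coords.comm_Q (Q.mul_mem k2.2.1 k1.2.1)]
  refine no_commutator hsq.1 hπ1 hs φ.range hP ?_ ?_ ⟨k1, rfl⟩ ⟨k2, rfl⟩ (hfix a1 ha1) (hfix a2 ha2) ?_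
  · rintro _ ⟨⟨a, ha⟩, rfl⟩
    exact ⟨⟨b * a * b⁻¹, hbQ2 a ha⟩, hconj a ha⟩
  · rintro _ ⟨⟨a, ha⟩, rfl⟩
    show act (c * a * c⁻¹) * _ = _ * act (c * a * c⁻¹)
    rw [← e, ← F.coords.act_mul _ _ (hcz a ha).1 htz, (hcz a ha).2,
      F.coords.act_mul _ _ htz (hcz a ha).1]
  · rw [← map_mul φ, ← map_mul φ, ← e]
    show act (c * ((k1 : G) * k2) * c⁻¹) = act t * act (c * ((k2 : G) * k1) * c⁻¹)
    rw [← F.coords.act_mul _ _ htz (hcz _ (Q2.mul_mem k2.2 k1.2)).1, hk, ← hct]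
    congr 1
    group

end Frame

end CfsgLib.ConwayFive
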